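import Cfsg.Agent.Lib.M24X.OctadOrbits
import Cfsg.Agent.Lib.M24X.SextetOrbData
import Cfsg.Agent.Lib.M24X.TrioOrbData
import Cfsg.Agent.Lib.M24X.DodOrbData

/-!
# The sextet, trio and dodecad-pair stabilisers on octads, sextets, trios.
-/

set_option autoImplicit false
set_option maxRecDepth 100000
set_option maxHeartbeats 4000000

namespace Cfsg.Agent.Lib.M24X

open Cfsg Cfsg.Agent.Lib.Golay MulAction
open scoped Pointwise

theorem hinvL_octad {A : List ℕ} (hA : bdB A = true) (hA2 : A.Nodup) (k : ℕ) :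
    ∀ m ∈ octadL, mcount k (fam A) {finOf m} = mcL k A [m] := by
  intro m hm
  rw [← fam_singleton]
  exact mcount_fam k hA (bdB_iff.mpr (by simpa using octadL_lt hm)) hA2 (by simp)

theorem stab_octad_class {H : Subgroup ↥M24} {A : Finset (Finset GolayPt)}
    (hA : ∀ h : ↥H, ((h : ↥M24) : Equiv.Perm GolayPt) • A = A) (k : ℕ) :
    ∀ h : ↥H, ∀ x ∈ octads, h • x ∈ octads ∧ mcount k A {h • x} = mcount k A {x} := by
  intro h x hx
  refine ⟨smul_octad h.1.2 hx, ?_⟩
  have := mcount_stab hA k h {x}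
  rwa [← Finset.smul_finset_singleton] 

theorem hΩ_octads : ∀ x ∈ octads, ∃ L ∈ octadL, finOf L = x := by
  intro x hx
  obtain ⟨m, hm, rfl⟩ := (mem_octads_iff _).mp hx
  exact ⟨m, hm, rfl⟩

theorem hall3_mask {ΩL : List ℕ} {Ω : Set (Finset GolayPt)}
    (hΩ : ∀ x ∈ Ω, ∃ L ∈ ΩL, finOf L = x) {inv : Finset GolayPt → ℕ} {invL : ℕ → ℕ}
    (hinvL : ∀ L ∈ ΩL, inv (finOf L) = invL L) {v₁ v₂ v₃ : ℕ}
    (h : ΩL.all (fun L => Nat.beq (invL L) v₁ || Nat.beq (invL L) v₂ || Nat.beq (invL L) v₃) = true) :
    ∀ x ∈ Ω, inv x = v₁ ∨ inv x = v₂ ∨ inv x = v₃ := by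
  intro x hx
  obtain ⟨L, hL, rfl⟩ := hΩ x hx
  have h1 := List.all_eq_true.mp h L hL
  simp only [Bool.or_eq_true, Nat.beq_eq] at h1
  rw [hinvL L hL]
  tauto

theorem mem_octadL_finOf {m : ℕ} (h : isOct m = true) : finOf m ∈ octads := finOf_mem_octads h

/-! ### The sextet stabiliser -/

theorem sexGensIn : GensIn (stabilizer M24 (fam sex0)) sexGens :=
  gensIn_stabF (by decide +kernel)

theorem bd_sex0 : bdB sex0 = true := by decide +kernel
theorem nd_sex0 : sex0.Nodup := by decide +kernel

theorem sextet_octads_cover : Cover3 (stabilizer M24 (fam sex0)) octads 15 360 384 := by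
  have hinv : ∀ m ∈ octadL, (fun x : Finset GolayPt => mcount 0 (fam sex0) {x}) (finOf m) = mcL 0 sex0 [m] :=
    hinvL_octad bd_sex0 nd_sex0 0
  have hs := stab_octad_class (H := stabilizer M24 (fam sex0)) (A := fam sex0) stabF_fam 0
  have r0 : isOct sexRoot0 = true := by decide +kernel
  have r1 : isOct sexRoot1 = true := by decide +kernel
  have r2 : isOct sexRoot2 = true := by decide +kernel
  refine cover3_of_classes (inv := fun x : Finset GolayPt => mcount 0 (fam sex0) {x})
    (v₁ := 4) (v₂ := 2) (v₃ := 0)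
    (finOf_mem_octads r0) (finOf_mem_octads r1) (finOf_mem_octads r2) ?_ ?_ ?_
    (hall3_mask hΩ_octads hinv (by decide +kernel))
  · exact orbit_mask sexGensIn hΩ_octads hinv hs (finOf_mem_octads r0)
      ((hinv _ (isOct_iff.mp r0)).trans (by decide +kernel))
      (ops := sexOps0) (p := sexP0) (by decide +kernel) (by decide +kernel)
  · exact orbit_mask sexGensIn hΩ_octads hinv hs (finOf_mem_octads r1)
      ((hinv _ (isOct_iff.mp r1)).trans (by decide +kernel))
      (ops := sexOps1) (p := sexP1) (by decide +kernel) (by decide +kernel)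
  · exact orbit_mask sexGensIn hΩ_octads hinv hs (finOf_mem_octads r2)
      ((hinv _ (isOct_iff.mp r2)).trans (by decide +kernel))
      (ops := sexOps2) (p := sexP2) (by decide +kernel) (by decide +kernel)

theorem sextet_trios_cover : Cover4 (stabilizer M24 (fam sex0)) trios 15 180 720 2880 := by
  have hinv := hinvL_trio bd_sex0 nd_sex0 0
  have hΩ : ∀ x ∈ trios, ∃ L ∈ trioL, fam L = x := fun x hx => mem_trios_iff.mp hx
  have hs := stab_trio_class (H := stabilizer M24 (fam sex0)) (A := fam sex0) stabF_fam 0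
  have r0 : sexRoot3 ∈ trioL := by decide +kernel
  have r1 : sexRoot4 ∈ trioL := by decide +kernel
  have r2 : sexRoot5 ∈ trioL := by decide +kernel
  have r3 : sexRoot6 ∈ trioL := by decide +kernel
  refine cover4_of_classes (inv := mcount 0 (fam sex0)) (v₁ := 12) (v₂ := 8) (v₃ := 6) (v₄ := 2)
    (mem_trios_of_list r0) (mem_trios_of_list r1) (mem_trios_of_list r2) (mem_trios_of_list r3)
    ?_ ?_ ?_ ?_ (hall4_list hΩ hinv (by decide +kernel))
  · exact orbit_fam sexGensIn hΩ hinv hs (mem_trios_of_list r0) (by rw [hinv _ r0]; decide +kernel)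
      (ops := sexOps3) (q := 4096) (p := sexP3) (by decide +kernel) (by decide +kernel)
  · exact orbit_fam sexGensIn hΩ hinv hs (mem_trios_of_list r1) (by rw [hinv _ r1]; decide +kernel)
      (ops := sexOps4) (q := 4096) (p := sexP4) (by decide +kernel) (by decide +kernel)
  · exact orbit_fam sexGensIn hΩ hinv hs (mem_trios_of_list r2) (by rw [hinv _ r2]; decide +kernel)
      (ops := sexOps5) (q := 4096) (p := sexP5) (by decide +kernel) (by decide +kernel)
  · exact orbit_fam sexGensIn hΩ hinv hs (mem_trios_of_list r3) (by rw [hinv _ r3]; decide +kernel)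
      (ops := sexOps6) (q := 4096) (p := sexP6) (by decide +kernel) (by decide +kernel)

/-- `M24` is transitive on the sextets. -/
theorem exists_smul_sextet {S : Finset (Finset GolayPt)} (hS : S ∈ sextets) :
    ∃ g : ↥M24, g • fam sex0 = S := by
  classical
  have hS0 : fam sex0 ∈ sextets := fam_mem_sextets (by decide +kernel)
  obtain ⟨t, ht⟩ : S.Nonempty := Finset.card_pos.mp (by rw [hS.1]; norm_num)
  have hc : t.card = 4 := hS.2.1 t ht
  let e := t.equivFinOfCardEq hc
  let f : Fin 4 → GolayPt := fun i => (e.symm i : GolayPt)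
  have hf : Function.Injective f := fun i j h => e.symm.injective (Subtype.ext h)
  have hft : ∀ i, f i ∈ t := fun i => (e.symm i).2
  obtain ⟨h, hh, h1, h2, h3, h4⟩ := exists_to_base4 (p := f 0) (q := f 1) (r := f 2) (s := f 3)
    (hf.ne (by decide)) (hf.ne (by decide)) (hf.ne (by decide)) (hf.ne (by decide))
    (hf.ne (by decide)) (hf.ne (by decide))
  have ht0 : finOf 8388615 ⊆ h • t := by
    intro x hx
    have hx' : x = pt 23 ∨ x = pt 0 ∨ x = pt 1 ∨ x = pt 2 := by
      revert x
      decide +kernel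
    rcases hx' with rfl | rfl | rfl | rfl
    · rw [← h1]; exact (mem_smul_iff h _ _).mpr (hft 0)
    · rw [← h2]; exact (mem_smul_iff h _ _).mpr (hft 1)
    · rw [← h3]; exact (mem_smul_iff h _ _).mpr (hft 2)
    · rw [← h4]; exact (mem_smul_iff h _ _).mpr (hft 3)
  have hte : finOf 8388615 = h • t := by
    apply Finset.eq_of_subset_of_card_le ht0
    rw [Finset.card_smul_finset, hc, card_finOf (by norm_num)]
    decide +kernel
  have hmem1 : finOf 8388615 ∈ fam sex0 := mem_fam.mpr ⟨8388615, by decide +kernel, rfl⟩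
  have hmem2 : finOf 8388615 ∈ h • S := by
    rw [hte]
    exact Finset.smul_mem_smul_finset ht
  have he := sextet_eq_of_mem hS0 (smul_sextet hh hS) hmem1 hmem2
  refine ⟨⟨h, hh⟩⁻¹, ?_⟩
  show h⁻¹ • fam sex0 = S
  rw [he, inv_smul_smul]

/-! ### Trios -/

theorem octad_trio_orbit0 :
    orbit ↥(stabilizer M24 (finOf m0)) (fam octRoot0) =
      {x | x ∈ trios ∧ mcount 0 (fam [m0]) x = 2} := by
  have hinv := hinvL_trio bd_m0 nd_m0 0
  have hΩ : ∀ x ∈ trios, ∃ L ∈ trioL, fam L = x := fun x hx => mem_trios_iff.mp hx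
  have hs := stab_trio_class (H := stabilizer M24 (finOf m0)) (A := fam [m0]) stab_singleton 0
  have r0 : octRoot0 ∈ trioL := by decide +kernel
  exact (orbit_fam octGensIn hΩ hinv hs (mem_trios_of_list r0) (by rw [hinv _ r0]; decide +kernel)
      (ops := octOps0) (q := 4096) (p := octP0) (c := 15) (by decide +kernel) (by decide +kernel)).1

theorem trio_through_check :
    trioL.all (fun L => !memB m0 L || Nat.beq (mcL 0 [m0] L) 2) = true := by decide +kernel

/-- A trio through the base octad is in the orbit of the base trio. -/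
theorem exists_stab_trio {T : Finset (Finset GolayPt)} (hT : T ∈ trios) (h0 : finOf m0 ∈ T) :
    ∃ k : ↥(stabilizer M24 (finOf m0)), k • fam octRoot0 = T := by
  have h1 : T ∈ orbit ↥(stabilizer M24 (finOf m0)) (fam octRoot0) := by
    rw [octad_trio_orbit0]
    refine ⟨hT, ?_⟩
    obtain ⟨L, hL, rfl⟩ := mem_trios_iff.mp hT
    rw [hinvL_trio bd_m0 nd_m0 0 L hL]
    obtain ⟨m, hm, he⟩ := mem_fam.mp h0
    have hb := bdB_iff.mp (trioL_bd hL)
    have hm0 : m = m0 := finOf_injOn (hb m hm) (by decide +kernel) he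
    rw [hm0] at hm
    have := List.all_eq_true.mp trio_through_check L hL
    rw [memB_iff.mpr hm] at this
    simpa using this
  obtain ⟨k, hk⟩ := h1
  exact ⟨k, hk⟩

/-- `M24` is transitive on the trios. -/
theorem exists_smul_trio {T : Finset (Finset GolayPt)} (hT : T ∈ trios) :
    ∃ g : ↥M24, g • fam octRoot0 = T := by
  obtain ⟨o, ho⟩ : T.Nonempty := Finset.card_pos.mp (by rw [hT.1]; norm_num)
  obtain ⟨g, hg⟩ := exists_smul_octad (hT.2.1 o ho)
  have h1 : (g⁻¹ : ↥M24) • T ∈ trios := smul_trio (g⁻¹).2 hT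
  have h2 : finOf m0 ∈ (g⁻¹ : ↥M24) • T := by
    rw [← inv_smul_smul g (finOf m0), hg]
    exact Finset.smul_mem_smul_finset ho
  obtain ⟨k, hk⟩ := exists_stab_trio h1 h2
  refine ⟨g * k.1, ?_⟩
  rw [mul_smul]
  have : k.1 • fam octRoot0 = (g⁻¹ : ↥M24) • T := hk
  rw [this, smul_inv_smul]

theorem tr0_eq : tr0 = octRoot0 := by decide +kernel

theorem trGensIn : GensIn (stabilizer M24 (fam tr0)) trGens :=
  gensIn_stabF (by decide +kernel)

theorem bd_tr0 : bdB tr0 = true := by decide +kernel
theorem nd_tr0 : tr0.Nodup := by decide +kernel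

theorem trio_octads_cover : Cover3 (stabilizer M24 (fam tr0)) octads 3 84 672 := by
  have hinv : ∀ m ∈ octadL, (fun x : Finset GolayPt => mcount 0 (fam tr0) {x}) (finOf m) = mcL 0 tr0 [m] :=
    hinvL_octad bd_tr0 nd_tr0 0
  have hs := stab_octad_class (H := stabilizer M24 (fam tr0)) (A := fam tr0) stabF_fam 0
  have r0 : isOct trRoot0 = true := by decide +kernel
  have r1 : isOct trRoot1 = true := by decide +kernel
  have r2 : isOct trRoot2 = true := by decide +kernel
  refine cover3_of_classes (inv := fun x : Finset GolayPt => mcount 0 (fam tr0) {x})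
    (v₁ := 2) (v₂ := 1) (v₃ := 0)
    (finOf_mem_octads r0) (finOf_mem_octads r1) (finOf_mem_octads r2) ?_ ?_ ?_
    (hall3_mask hΩ_octads hinv (by decide +kernel))
  · exact orbit_mask trGensIn hΩ_octads hinv hs (finOf_mem_octads r0)
      ((hinv _ (isOct_iff.mp r0)).trans (by decide +kernel))
      (ops := trOps0) (p := trP0) (by decide +kernel) (by decide +kernel)
  · exact orbit_mask trGensIn hΩ_octads hinv hs (finOf_mem_octads r1)
      ((hinv _ (isOct_iff.mp r1)).trans (by decide +kernel))
      (ops := trOps1) (p := trP1) (by decide +kernel) (by decide +kernel)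
  · exact orbit_mask trGensIn hΩ_octads hinv hs (finOf_mem_octads r2)
      ((hinv _ (isOct_iff.mp r2)).trans (by decide +kernel))
      (ops := trOps2) (p := trP2) (by decide +kernel) (by decide +kernel)

theorem trio_sextets_cover : Cover4 (stabilizer M24 (fam tr0)) sextets 7 84 336 1344 := by
  have hinv := hinvL_sextet bd_tr0 nd_tr0 0
  have hΩ : ∀ x ∈ sextets, ∃ L ∈ sextetL, fam L = x := fun x hx => mem_sextets_iff.mp hx
  have hs := stab_sextet_class (H := stabilizer M24 (fam tr0)) (A := fam tr0) stabF_fam 0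
  have r0 : trRoot3 ∈ sextetL := by decide +kernel
  have r1 : trRoot4 ∈ sextetL := by decide +kernel
  have r2 : trRoot5 ∈ sextetL := by decide +kernel
  have r3 : trRoot6 ∈ sextetL := by decide +kernel
  refine cover4_of_classes (inv := mcount 0 (fam tr0)) (v₁ := 12) (v₂ := 8) (v₃ := 6) (v₄ := 2)
    (mem_sextets_of_list r0) (mem_sextets_of_list r1) (mem_sextets_of_list r2) (mem_sextets_of_list r3)
    ?_ ?_ ?_ ?_ (hall4_list hΩ hinv (by decide +kernel))
  · exact orbit_fam trGensIn hΩ hinv hs (mem_sextets_of_list r0) (by rw [hinv _ r0]; decide +kernel)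
      (ops := trOps3) (q := 4096) (p := trP3) (by decide +kernel) (by decide +kernel)
  · exact orbit_fam trGensIn hΩ hinv hs (mem_sextets_of_list r1) (by rw [hinv _ r1]; decide +kernel)
      (ops := trOps4) (q := 4096) (p := trP4) (by decide +kernel) (by decide +kernel)
  · exact orbit_fam trGensIn hΩ hinv hs (mem_sextets_of_list r2) (by rw [hinv _ r2]; decide +kernel)
      (ops := trOps5) (q := 4096) (p := trP5) (by decide +kernel) (by decide +kernel)
  · exact orbit_fam trGensIn hΩ hinv hs (mem_sextets_of_list r3) (by rw [hinv _ r3]; decide +kernel)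
      (ops := trOps6) (q := 4096) (p := trP6) (by decide +kernel) (by decide +kernel)

/-! ### Dodecads -/

/-- `M24` is transitive on the dodecads. -/
theorem exists_smul_dodecad {d : Finset GolayPt} (hd : d ∈ dodecads) : ∃ g : ↥M24, g • finOf d0 = d := by
  have hG : GensIn ⊤ dGensM := GensIn.top (by decide +kernel)
  have hΩ : ∀ x ∈ dodecads, ∃ L ∈ dodecadL, finOf L = x := by
    intro x hx
    obtain ⟨m, hm, rfl⟩ := (mem_dodecads_iff _).mp hx
    exact ⟨m, hm, rfl⟩
  have h0 : isDod d0 = true := by decide +kernel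
  have := orbit_mask (H := ⊤) hG (Ω := dodecads) hΩ (inv := fun _ => 0) (invL := fun _ => 0)
    (fun _ _ => rfl) (fun h x hx => ⟨smul_dodecad h.1.2 hx, rfl⟩) (root := d0) (ops := dOpsM)
    (p := dPM) (c := 2576) (v := 0) (finOf_mem_dodecads h0) rfl (by decide +kernel)
    (by decide +kernel)
  have h1 : d ∈ orbit ↥(⊤ : Subgroup ↥M24) (finOf d0) := by
    rw [this.1]
    exact ⟨hd, rfl⟩
  obtain ⟨k, hk⟩ := h1
  exact ⟨k.1, hk⟩

theorem finOf_d1 : finOf d1 = Finset.univ \ finOf d0 := by
  ext p
  simp only [mem_finOf, Finset.mem_sdiff, Finset.mem_univ, true_and]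
  revert p
  decide +kernel

theorem fam_dp : fam [d0, d1] = {finOf d0, Finset.univ \ finOf d0} := by
  rw [← finOf_d1]
  ext s
  simp [mem_fam, eq_comm]

theorem dpGensIn : GensIn (stabilizer M24 (fam [d0, d1])) dpGens :=
  gensIn_stabF (by decide +kernel)

theorem bd_dp : bdB [d0, d1] = true := by decide +kernel
theorem nd_dp : [d0, d1].Nodup := by decide +kernel

theorem dp_sextets_cover : Cover3 (stabilizer M24 (fam [d0, d1])) sextets 396 495 880 := by
  have hinv := hinvL_sextet bd_dp nd_dp 2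
  have hΩ : ∀ x ∈ sextets, ∃ L ∈ sextetL, fam L = x := fun x hx => mem_sextets_iff.mp hx
  have hs := stab_sextet_class (H := stabilizer M24 (fam [d0, d1])) (A := fam [d0, d1]) stabF_fam 2
  have r0 : dpRoot0 ∈ sextetL := by decide +kernel
  have r1 : dpRoot1 ∈ sextetL := by decide +kernel
  have r2 : dpRoot2 ∈ sextetL := by decide +kernel
  refine cover3_of_classes (inv := mcount 2 (fam [d0, d1])) (v₁ := 12) (v₂ := 8) (v₃ := 0)
    (mem_sextets_of_list r0) (mem_sextets_of_list r1) (mem_sextets_of_list r2) ?_ ?_ ?_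
    (hall3_list hΩ hinv (by decide +kernel))
  · exact orbit_fam dpGensIn hΩ hinv hs (mem_sextets_of_list r0) (by rw [hinv _ r0]; decide +kernel)
      (ops := dpOps0) (q := 4096) (p := dpP0) (by decide +kernel) (by decide +kernel)
  · exact orbit_fam dpGensIn hΩ hinv hs (mem_sextets_of_list r1) (by rw [hinv _ r1]; decide +kernel)
      (ops := dpOps1) (q := 4096) (p := dpP1) (by decide +kernel) (by decide +kernel)
  · exact orbit_fam dpGensIn hΩ hinv hs (mem_sextets_of_list r2) (by rw [hinv _ r2]; decide +kernel)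
      (ops := dpOps2) (q := 4096) (p := dpP2) (by decide +kernel) (by decide +kernel)

end Cfsg.Agent.Lib.M24X
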