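/-
The Golay code modulo the all-ones word is irreducible (helper18).
-/
import Cfsg.Agent.Lib.M24X.MoreOrbits
import Cfsg.Agent.Lib.Golay.Leech

set_option autoImplicit false

namespace Cfsg.Agent.Lib.M24X

open Cfsg Cfsg.Agent.Lib.Golay

open scoped Pointwise

def irrGens : List (List ℕ) :=
  [[19, 4, 3, 21, 1, 9, 16, 2, 18, 8, 14, 11, 22, 12, 13, 0, 15, 20, 6, 7, 10, 23, 17, 5]]

section

variable {W : Submodule (ZMod 2) (GolayPt → ZMod 2)}

/-- A word obtained from another by an element of the group. -/
theorem mem_of_support_smul (hinv : ∀ σ ∈ M24, ∀ w ∈ W, (fun p => w (σ.symm p)) ∈ W) {v w : GolayPt → ZMod 2}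
    (hw : w ∈ W) {g : ↥M24} (h : g • support₂ w = support₂ v) : v ∈ W := by
  have h1 := hinv g g.2 w hw
  have h2 : support₂ (fun p => w ((g : Equiv.Perm GolayPt).symm p)) = support₂ v := by
    rw [← h]
    exact (smul_support (g : Equiv.Perm GolayPt) w).symm
  rwa [word_eq_of_support h2] at h1

theorem eq_code_of_octad (hWC : W ≤ golayCode) (hinv : ∀ σ ∈ M24, ∀ w ∈ W, (fun p => w (σ.symm p)) ∈ W)
    {v : GolayPt → ZMod 2} (hv : v ∈ W) (h8 : (support₂ v).card = 8) : W = golayCode := by
  apply le_antisymm hWC
  have ho : support₂ v ∈ octads := ⟨⟨v, hWC hv, rfl⟩, h8⟩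
  obtain ⟨g₁, hg₁⟩ := exists_smul_octad ho
  intro w hw
  refine code_induction (P := fun w => w ∈ W) W.zero_mem (fun _ _ h1 h2 => W.add_mem h1 h2) ?_ hw
  intro e he
  have hoct : isOct e = true := by
    revert e
    decide +kernel
  obtain ⟨g₂, hg₂⟩ := exists_smul_octad (finOf_mem_octads hoct)
  refine mem_of_support_smul hinv hv (g := g₂ * g₁⁻¹) ?_
  rw [support_wordOf, ← hg₁, smul_smul, mul_assoc, inv_mul_cancel, mul_one, hg₂]

end

/-- Irreducibility. -/
theorem code_irreducible (W : Submodule (ZMod 2) (GolayPt → ZMod 2)) (h1 : (fun _ => (1 : ZMod 2)) ∈ W)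
    (hWC : W ≤ golayCode) (hinv : ∀ σ ∈ M24, ∀ w ∈ W, (fun p => w (σ.symm p)) ∈ W) :
    W = Submodule.span (ZMod 2) {fun _ => (1 : ZMod 2)} ∨ W = golayCode := by
  by_cases hall : ∀ w ∈ W, w = 0 ∨ w = fun _ => (1 : ZMod 2)
  · left
    apply le_antisymm
    · intro w hw
      rcases hall w hw with rfl | rfl
      · exact Submodule.zero_mem _
      · exact Submodule.subset_span rfl
    · rw [Submodule.span_le]
      rintro _ rfl
      exact h1
  · right
    push Not at hall
    obtain ⟨w, hw, hw0, hw1⟩ := hall
    have hsupp1 : support₂ (fun _ : GolayPt => (1 : ZMod 2)) = Finset.univ := by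
      ext p
      simp [support₂]
    have hcard : (support₂ w).card = 8 ∨ (support₂ w).card = 12 ∨ (support₂ w).card = 16 := by
      rcases Leech.card_support_code (hWC hw) with h | h | h | h | h
      · exfalso
        apply hw0
        apply word_eq_of_support
        rw [Finset.card_eq_zero.mp h]
        ext p
        simp [support₂]
      · exact Or.inl h
      · exact Or.inr (Or.inl h)
      · exact Or.inr (Or.inr h)
      · exfalso
        apply hw1
        apply word_eq_of_support
        rw [hsupp1]
        apply Finset.eq_univ_of_card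
        rw [h]
        rfl
    rcases hcard with h | h | h
    · exact eq_code_of_octad hWC hinv hw h
    · -- dodecads
      have hd : support₂ w ∈ dodecads := ⟨⟨w, hWC hw, rfl⟩, h⟩
      obtain ⟨g, hg⟩ := exists_smul_dodecad hd
      have h2 : wordOf d0 ∈ W := by
        refine mem_of_support_smul hinv hw (g := g⁻¹) ?_
        rw [support_wordOf, ← hg, smul_smul, inv_mul_cancel, one_smul]
      have hG : GensIn ⊤ irrGens := GensIn.top (by decide +kernel)
      obtain ⟨h', hh'⟩ := hG.act_mask 0 d0
      have h3 : wordOf (actM irrGens 0 d0) ∈ W := by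
        refine mem_of_support_smul hinv h2 (g := (h' : ↥M24)) ?_
        rw [support_wordOf, support_wordOf, hh']
        rfl
      have h4 : wordOf (d0 ^^^ actM irrGens 0 d0) ∈ W := by
        rw [wordOf_xor]
        exact W.add_mem h2 h3
      have hoct : isOct (d0 ^^^ actM irrGens 0 d0) = true := by decide +kernel
      refine eq_code_of_octad hWC hinv h4 ?_
      rw [support_wordOf]
      exact (finOf_mem_octads hoct).2
    · -- complement of an octad
      have h2 : (w + fun _ => (1 : ZMod 2)) ∈ W := W.add_mem hw h1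
      refine eq_code_of_octad hWC hinv h2 ?_
      have h3 : support₂ (w + fun _ => (1 : ZMod 2)) = Finset.univ \ support₂ w := by
        ext p
        simp only [support₂, Finset.mem_filter, Finset.mem_univ, true_and, Finset.mem_sdiff, Pi.add_apply]
        generalize w p = a
        revert a
        decide
      rw [h3, Finset.card_sdiff_of_subset (Finset.subset_univ _), h]
      rfl

end Cfsg.Agent.Lib.M24X
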