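/-
The stabilizers of code words have no fixed points on the cocode (helper18).
-/
import Cfsg.Agent.Lib.M24X.Irred

set_option autoImplicit false

namespace Cfsg.Agent.Lib.M24X

open Cfsg Cfsg.Agent.Lib.Golay MulAction

open scoped Pointwise

/-- The residues modulo the code. -/
theorem comb_ge_check : (List.range 4096).all (fun c => c == 0 || Nat.ble 4096 (comb c)) = true := by
  decide +kernel

theorem exists_coset_rep {m : ℕ} (hm : m < 2 ^ 24) : ∃ c < 4096, ∃ r < 4096, m = comb c ^^^ r := by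
  let φ : Fin 4096 × Fin 4096 → Fin (2 ^ 24) := fun a => ⟨comb a.1 ^^^ a.2, by
    have h1 : comb a.1 < 2 ^ 24 := comb_lt a.1.2
    have h2 : (a.2 : ℕ) < 2 ^ 24 := lt_of_lt_of_le a.2.2 (by norm_num)
    exact Nat.xor_lt_two_pow h1 h2⟩
  have hinj : Function.Injective φ := by
    rintro ⟨a, b⟩ ⟨c, d⟩ h
    have h1 : comb a ^^^ (b : ℕ) = comb c ^^^ (d : ℕ) := congrArg Fin.val h
    have h2 : comb ((a : ℕ) ^^^ (c : ℕ)) = (b : ℕ) ^^^ (d : ℕ) := by
      rw [comb_xor]
      have key : ∀ x y u v : ℕ, x ^^^ u = y ^^^ v → x ^^^ y = u ^^^ v := by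
        intro x y u v e
        have e2 : x ^^^ u ^^^ y ^^^ u = y ^^^ v ^^^ y ^^^ u := by rw [e]
        have l : x ^^^ u ^^^ y ^^^ u = x ^^^ y := by
          rw [Nat.xor_assoc x u y, Nat.xor_comm u y, ← Nat.xor_assoc, Nat.xor_assoc, Nat.xor_self, Nat.xor_zero]
        have r : y ^^^ v ^^^ y ^^^ u = u ^^^ v := by
          ac_nf
          rw [← Nat.xor_assoc y y, Nat.xor_self, Nat.zero_xor]
        rwa [l, r] at e2
      exact key _ _ _ _ h1
    have h3 : (a : ℕ) ^^^ (c : ℕ) < 4096 := xor_lt_4096 a.2 c.2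
    have h4 : (b : ℕ) ^^^ (d : ℕ) < 4096 := xor_lt_4096 b.2 d.2
    have h5 := List.all_eq_true.mp comb_ge_check _ (List.mem_range.mpr h3)
    simp only [Bool.or_eq_true, beq_iff_eq, Nat.ble_eq] at h5
    rcases h5 with h5 | h5
    · have e1 : (a : ℕ) = c := Nat.eq_of_xor_eq_zero h5
      have h6 : (b : ℕ) ^^^ (d : ℕ) = 0 := by
        rw [← h2, h5]
        decide
      have e2 : (b : ℕ) = d := Nat.eq_of_xor_eq_zero h6
      exact Prod.ext (Fin.ext e1) (Fin.ext e2)
    · omega
  have hbij : Function.Bijective φ := by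
    rw [Fintype.bijective_iff_injective_and_card]
    refine ⟨hinj, ?_⟩
    simp
  obtain ⟨⟨a, b⟩, hab⟩ := hbij.2 ⟨m, hm⟩
  exact ⟨a, a.2, b, b.2, (congrArg Fin.val hab).symm⟩

/-- The action on words. -/
def actW (g : Equiv.Perm GolayPt) (w : GolayPt → ZMod 2) : GolayPt → ZMod 2 := fun p => w (g.symm p)

theorem actW_add (g : Equiv.Perm GolayPt) (v w : GolayPt → ZMod 2) : actW g (v + w) = actW g v + actW g w := rfl

theorem actW_mem {g : Equiv.Perm GolayPt} (hg : g ∈ M24) {w : GolayPt → ZMod 2} (hw : w ∈ golayCode) :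
    actW g w ∈ golayCode :=
  (mem_M24_iff g⁻¹).mp (M24.inv_mem hg) w hw

theorem actW_mul (g h : Equiv.Perm GolayPt) (w : GolayPt → ZMod 2) : actW (g * h) w = actW g (actW h w) := rfl

theorem actW_one (w : GolayPt → ZMod 2) : actW 1 w = w := rfl

theorem support_actW (g : Equiv.Perm GolayPt) (w : GolayPt → ZMod 2) : support₂ (actW g w) = g • support₂ w :=
  (smul_support g w).symm

theorem sub_eq_add' (v w : GolayPt → ZMod 2) : v - w = v + w := by
  funext p
  have key : ∀ a b : ZMod 2, a - b = a + b := by decide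
  exact key _ _

/-- The key step: generators moving all the nonzero residues. -/
theorem exists_moved {m : ℕ} {gens : List (List ℕ)} (hG : GensIn (stabilizer M24 (finOf m)) gens)
    (hcert : ∀ r < 4096, r ≠ 0 → ∃ n, inCode (actM gens n r ^^^ r) = false)
    {w : GolayPt → ZMod 2} (hw : w ∉ golayCode) :
    ∃ h : ↥M24, h • finOf m = finOf m ∧ actW h w - w ∉ golayCode := by
  obtain ⟨c, hc, r, hr, hcr⟩ := exists_coset_rep (setMask_lt (support₂ w))
  have hwe : w = wordOf (comb c) + wordOf r := by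
    rw [← wordOf_xor, ← hcr, wordOf_setMask_support]
  have hr0 : r ≠ 0 := by
    intro hr0
    apply hw
    rw [hwe, hr0]
    have h0 : wordOf 0 = 0 := by
      funext p
      simp [wordOf]
    rw [h0, add_zero]
    exact wordOf_comb_mem c
  obtain ⟨n, hnr⟩ := hcert r hr hr0
  obtain ⟨h, hh⟩ := hG.act_mask n r
  refine ⟨h, mem_stabilizer_iff.mp h.2, ?_⟩
  have h2 : actW (h : ↥M24) (wordOf r) = wordOf (actM gens n r) := by
    apply word_eq_of_support
    rw [support_actW, support_wordOf, support_wordOf, hh]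
    rfl
  have hlt : actM gens n r < 2 ^ 24 := pull_lt (hG.lkG n).1 r
  have h3 : wordOf (actM gens n r ^^^ r) ∉ golayCode := by
    rw [wordOf_mem_iff_inCode (Nat.xor_lt_two_pow hlt (lt_of_lt_of_le hr (by norm_num))), hnr]
    simp
  intro h4
  apply h3
  rw [wordOf_xor, ← h2]
  have hA := wordOf_comb_mem c
  have hA' := actW_mem h.1.2 hA
  generalize wordOf (comb c) = A at *
  generalize wordOf r = B at *
  subst hwe
  have h5 := golayCode.add_mem h4 (golayCode.add_mem hA hA')
  have e : actW (h : ↥M24) B + B = actW (h : ↥M24) (A + B) - (A + B) + (A + actW (h : ↥M24) A) := by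
    rw [sub_eq_add', actW_add]
    funext p
    simp only [Pi.add_apply]
    have key : ∀ a b c d : ZMod 2, a + b = c + a + (d + b) + (d + c) := by decide
    exact key _ _ _ _
  rw [e]
  exact h5

def dodStabGens : List (List ℕ) :=
  [[11, 1, 19, 8, 10, 7, 6, 12, 18, 5, 3, 0, 22, 20, 23, 14, 15, 13, 21, 4, 9, 2, 17, 16],
   [10, 8, 6, 18, 19, 16, 11, 15, 4, 14, 3, 0, 17, 23, 13, 12, 5, 9, 21, 1, 20, 2, 22, 7],
   [19, 11, 4, 21, 1, 15, 6, 5, 2, 14, 10, 0, 7, 17, 12, 23, 13, 20, 8, 18, 16, 3, 9, 22]]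

theorem dodStabGensIn : GensIn (stabilizer M24 (finOf d0)) dodStabGens :=
  gensIn_stabM (by decide +kernel)

set_option maxRecDepth 100000 in
theorem octCert0 : (List.range 4096).all (fun r => r == 0 || (List.range octGens.length).any fun n => !inCode (actM octGens n r ^^^ r)) = true := by
  decide +kernel

theorem octCert : ∀ r < 4096, r ≠ 0 → ∃ n, inCode (actM octGens n r ^^^ r) = false := by
  intro r hr hr0
  have h1 := List.all_eq_true.mp octCert0 r (List.mem_range.mpr hr)
  simp only [Bool.or_eq_true, beq_iff_eq, hr0, false_or, List.any_eq_true, List.mem_range,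
    Bool.not_eq_true'] at h1
  obtain ⟨n, _, hnr⟩ := h1
  exact ⟨n, hnr⟩

set_option maxRecDepth 100000 in
theorem dodCert0 : (List.range 4096).all (fun r => r == 0 || (List.range dodStabGens.length).any fun n => !inCode (actM dodStabGens n r ^^^ r)) = true := by
  decide +kernel

theorem dodCert : ∀ r < 4096, r ≠ 0 → ∃ n, inCode (actM dodStabGens n r ^^^ r) = false := by
  intro r hr hr0
  have h1 := List.all_eq_true.mp dodCert0 r (List.mem_range.mpr hr)
  simp only [Bool.or_eq_true, beq_iff_eq, hr0, false_or, List.any_eq_true, List.mem_range,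
    Bool.not_eq_true'] at h1
  obtain ⟨n, _, hnr⟩ := h1
  exact ⟨n, hnr⟩

/-- Transport of the previous step. -/
theorem exists_moved_conj {m : ℕ}
    (hkey : ∀ {w : GolayPt → ZMod 2}, w ∉ golayCode → ∃ h : ↥M24, h • finOf m = finOf m ∧ actW h w - w ∉ golayCode)
    {u w : GolayPt → ZMod 2} (g : ↥M24) (hu : g • finOf m = support₂ u) (hw : w ∉ golayCode) :
    ∃ σ ∈ M24, actW σ u = u ∧ actW σ w - w ∉ golayCode := by
  have hw' : actW ((g : Equiv.Perm GolayPt)⁻¹) w ∉ golayCode := by
    intro h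
    apply hw
    have := actW_mem (g := (g : Equiv.Perm GolayPt)) g.2 h
    rwa [← actW_mul, mul_inv_cancel, actW_one] at this
  obtain ⟨h, hh, hm⟩ := hkey hw'
  refine ⟨(g * h * g⁻¹ : ↥M24), (g * h * g⁻¹ : ↥M24).2, ?_, ?_⟩
  · apply word_eq_of_support
    rw [support_actW, ← hu]
    show (g * h * g⁻¹) • g • finOf m = g • finOf m
    rw [smul_smul, mul_assoc, mul_assoc, inv_mul_cancel, mul_one, mul_smul, hh]
  · intro h2
    apply hm
    have h3 := actW_mem (g := (g : Equiv.Perm GolayPt)⁻¹) (M24.inv_mem g.2) h2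
    have e : actW ((g : Equiv.Perm GolayPt)⁻¹) (actW ((g * h * g⁻¹ : ↥M24) : Equiv.Perm GolayPt) w - w)
        = actW (h : ↥M24) (actW ((g : Equiv.Perm GolayPt)⁻¹) w) - actW ((g : Equiv.Perm GolayPt)⁻¹) w := by
      have e1 : actW ((g : Equiv.Perm GolayPt)⁻¹) (actW ((g * h * g⁻¹ : ↥M24) : Equiv.Perm GolayPt) w)
          = actW (h : ↥M24) (actW ((g : Equiv.Perm GolayPt)⁻¹) w) := by
        rw [← actW_mul, ← actW_mul]
        congr 1
        simp only [Subgroup.coe_mul, Subgroup.coe_inv]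
        group
      rw [← e1]
      rfl
    rwa [e] at h3

/-- The main theorem. -/
theorem stab_word_moves {u w : GolayPt → ZMod 2} (hu : u ∈ golayCode) (hw : w ∉ golayCode) :
    ∃ σ ∈ M24, actW σ u = u ∧ actW σ w - w ∉ golayCode := by
  have hO : ∀ {w : GolayPt → ZMod 2}, w ∉ golayCode → ∃ h : ↥M24, h • finOf m0 = finOf m0 ∧ actW h w - w ∉ golayCode :=
    fun hw => exists_moved octGensIn octCert hw
  have hD : ∀ {w : GolayPt → ZMod 2}, w ∉ golayCode → ∃ h : ↥M24, h • finOf d0 = finOf d0 ∧ actW h w - w ∉ golayCode :=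
    fun hw => exists_moved dodStabGensIn dodCert hw
  have hsupp1 : support₂ (fun _ : GolayPt => (1 : ZMod 2)) = Finset.univ := by
    ext p
    simp [support₂]
  have hact1 : ∀ σ : Equiv.Perm GolayPt, actW σ (fun _ => (1 : ZMod 2)) = fun _ => 1 := fun _ => rfl
  have hact0 : ∀ σ : Equiv.Perm GolayPt, actW σ (0 : GolayPt → ZMod 2) = 0 := fun _ => rfl
  have h1mem : (fun _ : GolayPt => (1 : ZMod 2)) ∈ golayCode := Submodule.subset_span (Or.inr rfl)
  rcases Leech.card_support_code hu with h | h | h | h | h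
  · -- zero
    obtain ⟨σ, _, h2⟩ := hO hw
    refine ⟨σ, σ.2, ?_, h2⟩
    have h3 : u = 0 := by
      apply word_eq_of_support
      rw [Finset.card_eq_zero.mp h]
      ext p
      simp [support₂]
    rw [h3]
    rfl
  · -- octads
    obtain ⟨g, hg⟩ := exists_smul_octad (o := support₂ u) ⟨⟨u, hu, rfl⟩, h⟩
    exact exists_moved_conj hO g hg hw
  · obtain ⟨g, hg⟩ := exists_smul_dodecad (d := support₂ u) ⟨⟨u, hu, rfl⟩, h⟩
    exact exists_moved_conj hD g hg hw
  · -- complements of octads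
    have hv : (u + fun _ => (1 : ZMod 2)) ∈ golayCode := golayCode.add_mem hu h1mem
    have h3 : support₂ (u + fun _ => (1 : ZMod 2)) = Finset.univ \ support₂ u := by
      ext p
      simp only [support₂, Finset.mem_filter, Finset.mem_univ, true_and, Finset.mem_sdiff, Pi.add_apply]
      generalize u p = a
      revert a
      decide
    have h4 : (support₂ (u + fun _ => (1 : ZMod 2))).card = 8 := by
      rw [h3, Finset.card_sdiff_of_subset (Finset.subset_univ _), h]
      rfl
    obtain ⟨g, hg⟩ := exists_smul_octad (o := support₂ (u + fun _ => (1 : ZMod 2))) ⟨⟨_, hv, rfl⟩, h4⟩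
    obtain ⟨σ, hσ, h5, h6⟩ := exists_moved_conj hO g hg hw
    refine ⟨σ, hσ, ?_, h6⟩
    rw [actW_add, hact1] at h5
    funext p
    have h7 := congrFun h5 p
    simp only [Pi.add_apply] at h7
    exact add_right_cancel h7
  · -- the all-one word
    obtain ⟨σ, _, h2⟩ := hO hw
    refine ⟨σ, σ.2, ?_, h2⟩
    have h3 : u = fun _ => (1 : ZMod 2) := by
      apply word_eq_of_support
      rw [hsupp1]
      apply Finset.eq_univ_of_card
      rw [h]
      rfl
    rw [h3]
    rfl

end Cfsg.Agent.Lib.M24X
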