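/-
The lattice of invariant subspaces of the permutation module of M₂₄ (helper18).
-/
import Cfsg.Agent.Lib.M24X.Cocode

set_option autoImplicit false

namespace Cfsg.Agent.Lib.M24X

open Cfsg Cfsg.Agent.Lib.Golay MulAction

open scoped Pointwise

section

variable {W : Submodule (ZMod 2) (GolayPt → ZMod 2)}

theorem code_le_of_octad (hinv : ∀ σ ∈ M24, ∀ w ∈ W, (fun p => w (σ.symm p)) ∈ W)
    {v : GolayPt → ZMod 2} (hv : v ∈ W) (ho : support₂ v ∈ octads) : golayCode ≤ W := by
  obtain ⟨g₁, hg₁⟩ := exists_smul_octad ho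
  intro w hw
  refine code_induction (P := fun w => w ∈ W) W.zero_mem (fun _ _ h1 h2 => W.add_mem h1 h2) ?_ hw
  intro e he
  have hoct : isOct e = true := by
    revert e
    decide +kernel
  obtain ⟨g₂, hg₂⟩ := exists_smul_octad (finOf_mem_octads hoct)
  refine mem_of_support_smul hinv hv (g := g₂ * g₁⁻¹) ?_
  rw [support_wordOf, ← hg₁, smul_smul, mul_assoc, inv_mul_cancel, mul_one, hg₂]

theorem code_le_of_oct_mask (hinv : ∀ σ ∈ M24, ∀ w ∈ W, (fun p => w (σ.symm p)) ∈ W)
    {m : ℕ} (hoct : isOct m = true) (h : wordOf m ∈ W) : golayCode ≤ W := by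
  refine code_le_of_octad hinv h ?_
  rw [support_wordOf]
  exact finOf_mem_octads hoct

/-- The image of a word under a generator. -/
theorem word_act_mem (hinv : ∀ σ ∈ M24, ∀ w ∈ W, (fun p => w (σ.symm p)) ∈ W)
    {gens : List (List ℕ)} {H : Subgroup ↥M24} (hG : GensIn H gens) (n : ℕ) {m : ℕ} (h : wordOf m ∈ W) :
    wordOf (actM gens n m) ∈ W := by
  obtain ⟨h', hh'⟩ := hG.act_mask n m
  refine mem_of_support_smul hinv h (g := (h' : ↥M24)) ?_
  rw [support_wordOf, support_wordOf, hh']
  rfl

def sigGens : List (List ℕ) :=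
  [[3, 17, 18, 10, 13, 5, 23, 14, 16, 1, 0, 12, 7, 15, 2, 22, 11, 21, 6, 9, 8, 19, 20, 4]]

/-- Step A: a code word other than `0` and `𝟙` generates the code. -/
theorem code_le_of_mem (hinv : ∀ σ ∈ M24, ∀ w ∈ W, (fun p => w (σ.symm p)) ∈ W)
    {w : GolayPt → ZMod 2} (hw : w ∈ W) (hwC : w ∈ golayCode) (hw0 : w ≠ 0)
    (hw1 : w ≠ fun _ => (1 : ZMod 2)) : golayCode ≤ W := by
  have hsupp1 : support₂ (fun _ : GolayPt => (1 : ZMod 2)) = Finset.univ := by
    ext p
    simp [support₂]
  have hcard : (support₂ w).card = 8 ∨ (support₂ w).card = 12 ∨ (support₂ w).card = 16 := by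
    rcases Leech.card_support_code hwC with h | h | h | h | h
    · exfalso
      apply hw0
      apply word_eq_of_support
      rw [Finset.card_eq_zero.mp h]
      ext p
      simp [support₂]
    · exact Or.inl h
    · exact Or.inr (Or.inl h)
    · exact Or.inr (Or.inr h)
    · exfalso
      apply hw1
      apply word_eq_of_support
      rw [hsupp1]
      apply Finset.eq_univ_of_card
      rw [h]
      rfl
  rcases hcard with h | h | h
  · exact code_le_of_octad hinv hw ⟨⟨w, hwC, rfl⟩, h⟩
  · have hd : support₂ w ∈ dodecads := ⟨⟨w, hwC, rfl⟩, h⟩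
    obtain ⟨g, hg⟩ := exists_smul_dodecad hd
    have h2 : wordOf d0 ∈ W := by
      refine mem_of_support_smul hinv hw (g := g⁻¹) ?_
      rw [support_wordOf, ← hg, smul_smul, inv_mul_cancel, one_smul]
    have hG : GensIn ⊤ irrGens := GensIn.top (by decide +kernel)
    have h3 := word_act_mem hinv hG 0 h2
    have h4 : wordOf (d0 ^^^ actM irrGens 0 d0) ∈ W := by
      rw [wordOf_xor]
      exact W.add_mem h2 h3
    exact code_le_of_oct_mask hinv (by decide +kernel) h4
  · -- the complement of an octad
    have h2C : (w + fun _ => (1 : ZMod 2)) ∈ golayCode := by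
      refine golayCode.add_mem hwC ?_
      have := wordOf_ones_mem
      rwa [wordOf_onesMask] at this
    have h3 : support₂ (w + fun _ => (1 : ZMod 2)) = Finset.univ \ support₂ w := by
      ext p
      simp only [support₂, Finset.mem_filter, Finset.mem_univ, true_and, Finset.mem_sdiff, Pi.add_apply]
      generalize w p = a
      revert a
      decide
    have h4 : support₂ (w + fun _ => (1 : ZMod 2)) ∈ octads := by
      refine ⟨⟨_, h2C, rfl⟩, ?_⟩
      rw [h3, Finset.card_sdiff_of_subset (Finset.subset_univ _), h]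
      rfl
    obtain ⟨g, hg⟩ := exists_smul_octad h4
    -- transport to the complement of the base octad
    have h5 : actW ((g⁻¹ : ↥M24) : Equiv.Perm GolayPt) (w + fun _ => (1 : ZMod 2)) = wordOf m0 := by
      apply word_eq_of_support
      rw [support_actW, support_wordOf, ← hg]
      exact inv_smul_smul g _
    have h6 : wordOf (m0 ^^^ onesMask) ∈ W := by
      have h7 := hinv _ (g⁻¹ : ↥M24).2 w hw
      have h8 : (fun p => w (((g⁻¹ : ↥M24) : Equiv.Perm GolayPt).symm p)) = wordOf (m0 ^^^ onesMask) := by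
        rw [wordOf_xor, ← h5, wordOf_onesMask]
        funext p
        simp only [actW, Pi.add_apply, Pi.one_apply]
        have key : ∀ a : ZMod 2, a = a + 1 + 1 := by decide
        exact key _
      rwa [h8] at h7
    have hG : GensIn ⊤ sigGens := GensIn.top (by decide +kernel)
    have h9 := word_act_mem hinv hG 0 h6
    have h10 : wordOf ((m0 ^^^ onesMask) ^^^ actM sigGens 0 (m0 ^^^ onesMask)) ∈ W := by
      rw [wordOf_xor]
      exact W.add_mem h6 h9
    exact code_le_of_oct_mask hinv (by decide +kernel) h10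

end

/-! ### Self duality -/

theorem wordOf_mul_wordOf (a b : ℕ) (p : GolayPt) : wordOf a p * wordOf b p = wordOf (a &&& b) p := by
  simp only [wordOf_apply, Nat.testBit_and]
  cases a.testBit (idx p) <;> cases b.testBit (idx p) <;> simp

theorem sum_wordOf {m : ℕ} (hm : m < 2 ^ 24) : ∑ p, wordOf m p = ((pop m : ℕ) : ZMod 2) := by
  rw [← card_finOf hm]
  simp only [wordOf_apply, Finset.sum_boole]
  rfl

theorem selfdual_check :
    (List.range 4096).all (fun r => r == 0 || E.any (fun e => (pop (r &&& e)) % 2 == 1)) = true := by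
  decide +kernel

theorem wordOf_zero' : wordOf 0 = 0 := by
  funext p
  simp [wordOf]

theorem wordOf_inj {m n : ℕ} (hm : m < 2 ^ 24) (hn : n < 2 ^ 24) (h : wordOf m = wordOf n) : m = n := by
  apply finOf_injOn hm hn
  rw [← support_wordOf, ← support_wordOf, h]

/-- A word orthogonal to the code is in the code. -/
theorem mem_code_of_orth {y : GolayPt → ZMod 2} (h : ∀ c ∈ golayCode, ∑ p, y p * c p = 0) : y ∈ golayCode := by
  obtain ⟨a, ha, r, hr, har⟩ := exists_coset_rep (setMask_lt (support₂ y))
  have hye : y = wordOf (comb a) + wordOf r := by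
    rw [← wordOf_xor, ← har, wordOf_setMask_support]
  by_cases hr0 : r = 0
  · rw [hye, hr0, wordOf_zero', add_zero]
    exact wordOf_comb_mem a
  exfalso
  have h1 := List.all_eq_true.mp selfdual_check r (List.mem_range.mpr hr)
  simp only [Bool.or_eq_true, beq_iff_eq, hr0, false_or, List.any_eq_true] at h1
  obtain ⟨e, he, h2⟩ := h1
  have h3 := h (wordOf e) (E_mem e he)
  have h4 := dot_self_orthogonal (wordOf (comb a)) (wordOf e) (wordOf_comb_mem a) (E_mem e he)
  have hlt : r &&& e < 2 ^ 24 := lt_of_le_of_lt Nat.and_le_left (lt_of_lt_of_le hr (by norm_num))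
  have h5 : ∑ p, wordOf r p * wordOf e p = 1 := by
    simp only [wordOf_mul_wordOf]
    rw [sum_wordOf hlt]
    have h6 : pop (r &&& e) = 2 * (pop (r &&& e) / 2) + 1 := by
      have : pop (r &&& e) % 2 = 1 := by simpa using h2
      omega
    rw [h6]
    push_cast
    have h7 : (2 : ZMod 2) = 0 := rfl
    rw [h7]
    simp
  rw [hye] at h3
  simp only [Pi.add_apply, add_mul, Finset.sum_add_distrib, h4, h5] at h3
  simp at h3

section

variable {W : Submodule (ZMod 2) (GolayPt → ZMod 2)}

/-- The orthogonal complement. -/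
def perpW (W : Submodule (ZMod 2) (GolayPt → ZMod 2)) : Submodule (ZMod 2) (GolayPt → ZMod 2) where
  carrier := {z | ∀ w ∈ W, ∑ p, w p * z p = 0}
  add_mem' := by
    intro a b ha hb w hw
    simp only [Pi.add_apply, mul_add, Finset.sum_add_distrib, ha w hw, hb w hw, add_zero]
  zero_mem' := by
    intro w _
    simp
  smul_mem' := by
    intro c a ha w hw
    have key : ∀ p, w p * (c • a) p = c * (w p * a p) := by
      intro p
      simp only [Pi.smul_apply, smul_eq_mul]
      ring
    simp only [key, ← Finset.mul_sum, ha w hw, mul_zero]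

theorem mem_perpW {z : GolayPt → ZMod 2} : z ∈ perpW W ↔ ∀ w ∈ W, ∑ p, w p * z p = 0 := Iff.rfl

theorem perpW_inv (hinv : ∀ σ ∈ M24, ∀ w ∈ W, (fun p => w (σ.symm p)) ∈ W) :
    ∀ σ ∈ M24, ∀ w ∈ perpW W, (fun p => w (σ.symm p)) ∈ perpW W := by
  intro σ hσ z hz w hw
  have h1 : ∑ p, w (σ p) * z p = 0 := hz (fun p => w (σ p)) (hinv σ⁻¹ (M24.inv_mem hσ) w hw)
  have h2 := Equiv.sum_comp σ (fun q => w q * z (σ.symm q))
  simp only [Equiv.symm_apply_apply] at h2
  exact h2.symm.trans h1

/-- Lemma D: modulo the code, an invariant subspace not in the code contains every even word. -/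
theorem even_mem_sup (hinv : ∀ σ ∈ M24, ∀ w ∈ W, (fun p => w (σ.symm p)) ∈ W) (hnot : ¬ W ≤ golayCode)
    {y : GolayPt → ZMod 2} (hy : ∑ p, y p = 0) : y ∈ W ⊔ golayCode := by
  by_contra hyU
  obtain ⟨f, hfy, hUf⟩ := Submodule.exists_le_ker_of_notMem hyU
  let z : GolayPt → ZMod 2 := fun p => f fun j => if p = j then 1 else 0
  have hf : ∀ w, f w = ∑ p, w p * z p := by
    intro w
    rw [LinearMap.pi_apply_eq_sum_univ f w]
    rfl
  have hfU : ∀ w ∈ W ⊔ golayCode, ∑ p, w p * z p = 0 := by
    intro w hw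
    rw [← hf]
    exact hUf hw
  have hzC : z ∈ golayCode := by
    apply mem_code_of_orth
    intro c hc
    have h1 := hfU c (Submodule.mem_sup_right hc)
    simpa only [mul_comm] using h1
  have hz0 : z ≠ 0 := by
    intro h0
    apply hfy
    rw [hf, h0]
    simp
  have hz1 : z ≠ fun _ => (1 : ZMod 2) := by
    intro h0
    apply hfy
    rw [hf, h0]
    simpa using hy
  have hzW : z ∈ perpW W := fun w hw => hfU w (Submodule.mem_sup_left hw)
  have hC := code_le_of_mem (perpW_inv hinv) hzW hzC hz0 hz1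
  apply hnot
  intro w hw
  apply mem_code_of_orth
  intro c hc
  exact hC hc w hw

def pairGens : List (List ℕ) :=
  [[1,0,7,16,3,8,15,9,20,21,18,13,23,4,6,5,2,22,14,11,17,19,10,12],
   [0,1,18,3,9,22,2,23,19,13,16,20,7,15,4,14,6,17,10,12,5,11,21,8],
   [1,0,10,11,8,15,22,9,21,17,16,23,4,19,5,6,20,3,14,12,2,13,7,18]]

def pairTrans : List (List ℕ) :=
  [[2,6,0,1,17,9,15,10,23,5,18,12,16,4,22,7,19,11,20,21,8,14,13,3],
   [9,22,4,20,17,0,13,12,11,10,18,16,5,6,1,8,3,7,2,14,19,23,15,21],
   [5,4,12,22,2,11,9,13,3,18,10,17,19,23,14,8,21,0,15,7,6,16,20,1]]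

theorem pair_cert : (List.range 4096).all (fun a => comb a == 0 || comb a == onesMask ||
    (List.range 3).any (fun n => (actM pairGens n (comb a) ^^^ comb a) != 0 &&
      (actM pairGens n (comb a) ^^^ comb a) != onesMask)) = true := by
  decide +kernel

theorem pairGens_in : GensIn (stabilizer M24 (finOf 3)) pairGens := gensIn_stabM (by decide +kernel)

theorem GensIn.act_unif {H : Subgroup ↥M24} {gens : List (List ℕ)} (hG : GensIn H gens) (n : ℕ) :
    ∃ h : ↥H, ∀ m, actW ((h : ↥M24) : Equiv.Perm GolayPt) (wordOf m) = wordOf (actM gens n m) := by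
  obtain ⟨h1, h, he⟩ := hG.lkG n
  refine ⟨h, fun m => ?_⟩
  apply word_eq_of_support
  rw [support_actW, support_wordOf, support_wordOf, he]
  exact finOf_pull h1 m

/-- Theorem B. -/
theorem code_le_of_one_mem (hinv : ∀ σ ∈ M24, ∀ w ∈ W, (fun p => w (σ.symm p)) ∈ W)
    (hnot : ¬ W ≤ golayCode) (h1 : (fun _ => (1 : ZMod 2)) ∈ W) : golayCode ≤ W := by
  by_contra hC
  have hinter : ∀ u ∈ W, u ∈ golayCode → u = 0 ∨ u = fun _ => (1 : ZMod 2) := by
    intro u hu huC
    by_contra hne
    push Not at hne
    exact hC (code_le_of_mem hinv hu huC hne.1 hne.2)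
  have hy : ∑ p, wordOf 3 p = 0 := by decide +kernel
  obtain ⟨w, hw, c, hc, hwc⟩ := Submodule.mem_sup.mp (even_mem_sup hinv hnot hy)
  obtain ⟨a, ha, rfl⟩ := (mem_golayCode_iff c).mp hc
  have hG := pairGens_in
  have hstep : ∀ n, actM pairGens n (comb a) ^^^ comb a = 0 ∨
      actM pairGens n (comb a) ^^^ comb a = onesMask := by
    intro n
    obtain ⟨h, hh⟩ := GensIn.act_unif hG n
    have e3 : actW ((h : ↥M24) : Equiv.Perm GolayPt) (wordOf 3) = wordOf 3 := by
      apply word_eq_of_support
      rw [support_actW, support_wordOf]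
      exact mem_stabilizer_iff.mp h.2
    have e := hh (comb a)
    have hlt : actM pairGens n (comb a) ^^^ comb a < 2 ^ 24 :=
      Nat.xor_lt_two_pow (pull_lt (hG.lkG n).1 _) (comb_lt ha)
    have hu : wordOf (actM pairGens n (comb a) ^^^ comb a) ∈ W := by
      have h3 : wordOf (actM pairGens n (comb a) ^^^ comb a) =
          actW ((h : ↥M24) : Equiv.Perm GolayPt) w + w := by
        rw [wordOf_xor, ← e]
        rw [← hwc, actW_add] at e3
        funext p
        have e4 := congrFun e3 p
        simp only [Pi.add_apply] at e4 ⊢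
        have key : ∀ x1 x2 x3 x4 : ZMod 2, x1 + x2 = x3 + x4 → x2 + x4 = x1 + x3 := by decide
        exact key _ _ _ _ e4
      rw [h3]
      exact W.add_mem (hinv _ (h : ↥M24).2 w hw) hw
    have huC : wordOf (actM pairGens n (comb a) ^^^ comb a) ∈ golayCode := by
      rw [wordOf_xor, ← e]
      exact golayCode.add_mem (actW_mem (h : ↥M24).2 (wordOf_comb_mem a)) (wordOf_comb_mem a)
    rcases hinter _ hu huC with h0 | h0
    · left
      rw [← wordOf_zero'] at h0
      exact wordOf_inj hlt (by norm_num) h0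
    · right
      have h2 : (fun _ => (1 : ZMod 2)) = wordOf onesMask := wordOf_onesMask.symm
      rw [h2] at h0
      exact wordOf_inj hlt (by decide) h0
  have hcm : comb a = 0 ∨ comb a = onesMask := by
    have h2 := List.all_eq_true.mp pair_cert a (List.mem_range.mpr ha)
    simp only [Bool.or_eq_true, beq_iff_eq, List.any_eq_true, Bool.and_eq_true, bne_iff_ne] at h2
    rcases h2 with (h2 | h2) | ⟨n, _, h2⟩
    · exact Or.inl h2
    · exact Or.inr h2
    · rcases hstep n with h3 | h3
      · exact absurd h3 h2.1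
      · exact absurd h3 h2.2
  have hcW : wordOf (comb a) ∈ W := by
    rcases hcm with h2 | h2
    · rw [h2, wordOf_zero']
      exact W.zero_mem
    · rw [h2]
      have h3 : wordOf onesMask = fun _ => (1 : ZMod 2) := wordOf_onesMask
      rw [h3]
      exact h1
  have h3W : wordOf 3 ∈ W := by
    rw [← hwc]
    exact W.add_mem hw hcW
  have hT : GensIn ⊤ pairTrans := GensIn.top (by decide +kernel)
  have h4 : wordOf (3 ^^^ actM pairTrans 0 3 ^^^ actM pairTrans 1 3 ^^^ actM pairTrans 2 3) ∈ W := by
    rw [wordOf_xor, wordOf_xor, wordOf_xor]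
    exact W.add_mem (W.add_mem (W.add_mem h3W (word_act_mem hinv hT 0 h3W)) (word_act_mem hinv hT 1 h3W))
      (word_act_mem hinv hT 2 h3W)
  exact hC (code_le_of_oct_mask hinv (by decide +kernel) h4)

/-- The classification of the invariant subspaces. -/
theorem uniserial (W : Submodule (ZMod 2) (GolayPt → ZMod 2))
    (hinv : ∀ σ ∈ M24, ∀ w ∈ W, (fun p => w (σ.symm p)) ∈ W) :
    W = ⊥ ∨ W = Submodule.span (ZMod 2) {fun _ => (1 : ZMod 2)} ∨ W = golayCode ∨
      (W : Set (GolayPt → ZMod 2)) = {w | ∑ p, w p = 0} ∨ W = ⊤ := by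
  by_cases hWC : W ≤ golayCode
  · by_cases hall : ∀ w ∈ W, w = 0 ∨ w = fun _ => (1 : ZMod 2)
    · by_cases h1 : (fun _ => (1 : ZMod 2)) ∈ W
      · right; left
        apply le_antisymm
        · intro w hw
          rcases hall w hw with rfl | rfl
          · exact Submodule.zero_mem _
          · exact Submodule.subset_span rfl
        · rw [Submodule.span_le]
          rintro _ rfl
          exact h1
      · left
        rw [Submodule.eq_bot_iff]
        intro w hw
        rcases hall w hw with rfl | rfl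
        · rfl
        · exact absurd hw h1
    · push Not at hall
      obtain ⟨w, hw, hw0, hw1⟩ := hall
      right; right; left
      exact le_antisymm hWC (code_le_of_mem hinv hw (hWC hw) hw0 hw1)
  -- W is not in the code
  have hone : (fun _ => (1 : ZMod 2)) ∈ golayCode := by
    have := wordOf_ones_mem
    rwa [wordOf_onesMask] at this
  let W₁ := W ⊔ Submodule.span (ZMod 2) {fun _ => (1 : ZMod 2)}
  have hW₁ : ∀ σ ∈ M24, ∀ w ∈ W₁, (fun p => w (σ.symm p)) ∈ W₁ := by
    intro σ hσ w hw
    obtain ⟨u, hu, v, hv, rfl⟩ := Submodule.mem_sup.mp hw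
    obtain ⟨a, rfl⟩ := Submodule.mem_span_singleton.mp hv
    refine Submodule.mem_sup.mpr ⟨_, hinv σ hσ u hu, a • (fun _ => (1 : ZMod 2)),
      Submodule.smul_mem _ a (Submodule.subset_span rfl), ?_⟩
    funext p
    rfl
  have h1W₁ : (fun _ => (1 : ZMod 2)) ∈ W₁ :=
    Submodule.mem_sup_right (Submodule.subset_span rfl)
  have hnot₁ : ¬ W₁ ≤ golayCode := fun h => hWC (le_sup_left.trans h)
  have hCW₁ := code_le_of_one_mem hW₁ hnot₁ h1W₁
  -- so the code is in `W`
  have hoct : isOct m0 = true := by decide +kernel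
  have hm0C : wordOf m0 ∈ golayCode := by
    rw [wordOf_mem_iff_inCode (by decide)]
    decide +kernel
  have hm0 : wordOf m0 ∈ W₁ := hCW₁ hm0C
  have hCW : golayCode ≤ W := by
    obtain ⟨u, hu, v, hv, huv⟩ := Submodule.mem_sup.mp hm0
    obtain ⟨a, rfl⟩ := Submodule.mem_span_singleton.mp hv
    have h0 : (a = 0) ∨ (a = 1) := by
      have key : ∀ a : ZMod 2, (a = 0) ∨ (a = 1) := by decide
      exact key a
    rcases h0 with rfl | rfl
    · rw [zero_smul, add_zero] at huv
      subst huv
      exact code_le_of_oct_mask hinv hoct hu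
    · rw [one_smul] at huv
      have huC : u = wordOf m0 + fun _ => (1 : ZMod 2) := by
        rw [← huv]
        funext p
        simp only [Pi.add_apply]
        have key : ∀ a : ZMod 2, a = a + 1 + 1 := by decide
        exact key _
      refine code_le_of_mem hinv hu (huC ▸ golayCode.add_mem hm0C hone) ?_ ?_
      · intro h2
        have h3 : (0 : GolayPt → ZMod 2) = wordOf m0 + fun _ => 1 := h2 ▸ huC
        have h4 : (wordOf m0 + fun _ => 1) = wordOf (m0 ^^^ onesMask) := by
          rw [wordOf_xor, wordOf_onesMask]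
          rfl
        rw [h4, ← wordOf_zero'] at h3
        have h5 := wordOf_inj (by norm_num) (by decide) h3
        revert h5
        decide +kernel
      · intro h2
        have h3 : (fun _ => (1 : ZMod 2)) = wordOf m0 + fun _ => 1 := h2 ▸ huC
        have h4 : (wordOf m0 + fun _ => 1) = wordOf (m0 ^^^ onesMask) := by
          rw [wordOf_xor, wordOf_onesMask]
          rfl
        have h6 : (fun _ => (1 : ZMod 2)) = wordOf onesMask := wordOf_onesMask.symm
        rw [h4, h6] at h3
        have h5 := wordOf_inj (by decide) (by decide) h3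
        revert h5
        decide +kernel
  have hsup : W ⊔ golayCode = W := sup_eq_left.mpr hCW
  have heven : ∀ y : GolayPt → ZMod 2, ∑ p, y p = 0 → y ∈ W := by
    intro y hy
    have h1 := even_mem_sup hinv hWC hy
    rwa [hsup] at h1
  right; right; right
  by_cases hev : ∀ w ∈ W, ∑ p, w p = 0
  · left
    ext y
    exact ⟨fun h => hev y h, fun h => heven y h⟩
  · right
    push Not at hev
    obtain ⟨w, hw, hw1⟩ := hev
    rw [eq_top_iff]
    intro y _
    by_cases hy : ∑ p, y p = 0
    · exact heven y hy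
    · have h2 : ∀ a b : ZMod 2, a ≠ 0 → b ≠ 0 → a + b = 0 := by decide
      have h3 : y + w ∈ W := heven _ (by
        simp only [Pi.add_apply, Finset.sum_add_distrib]
        exact h2 _ _ hy hw1)
      have h4 : y = (y + w) + w := by
        funext p
        simp only [Pi.add_apply]
        have key : ∀ a b : ZMod 2, a = a + b + b := by decide
        exact key _ _
      rw [h4]
      exact W.add_mem h3 hw

end

end Cfsg.Agent.Lib.M24X
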