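/-
Linear maps of the Golay code modulo `𝟙` preserving the classes of octads come from `M24` (helper18).
-/
import Cfsg.Agent.Lib.M24X.Uniserial
import Cfsg.Agent.Lib.M24X.W8Data

set_option autoImplicit false
set_option maxRecDepth 100000
set_option maxHeartbeats 1000000

namespace Cfsg.Agent.Lib.M24X

open Cfsg Cfsg.Agent.Lib.Golay MulAction

open scoped Pointwise

open Classical in
/-- The words of weight 8 or 16 of the code. -/
noncomputable def W8 : Finset (GolayPt → ZMod 2) :=
  Finset.univ.filter fun c => c ∈ golayCode ∧ ((support₂ c).card = 8 ∨ (support₂ c).card = 16)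

theorem mem_W8 {c : GolayPt → ZMod 2} :
    c ∈ W8 ↔ c ∈ golayCode ∧ ((support₂ c).card = 8 ∨ (support₂ c).card = 16) := by
  simp [W8]

/-- The count of members of `W8` orthogonal to a word. -/
noncomputable def NE (y : GolayPt → ZMod 2) : ℕ := (W8.filter fun c => ∑ p, y p * c p = 0).card

/-- Invariance of the count. -/
theorem NE_eq {y₁ y₂ : GolayPt → ZMod 2} {X : (GolayPt → ZMod 2) → (GolayPt → ZMod 2)}
    (hS : ∀ c ∈ W8, X c ∈ W8) (hinj : Set.InjOn X W8)
    (h : ∀ c ∈ W8, ∑ p, y₁ p * c p = ∑ p, y₂ p * X c p) : NE y₁ = NE y₂ := by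
  have h1 : NE y₁ ≤ NE y₂ := by
    refine Finset.card_le_card_of_injOn X ?_ (fun a ha b hb he =>
      hinj (Finset.mem_filter.mp ha).1 (Finset.mem_filter.mp hb).1 he)
    intro c hc
    have hc' := Finset.mem_filter.mp hc
    refine Finset.mem_filter.mpr ⟨hS c hc'.1, ?_⟩
    rw [← h c hc'.1]
    exact hc'.2
  have h2 : (W8.filter fun c => ¬ ∑ p, y₁ p * c p = 0).card ≤
      (W8.filter fun c => ¬ ∑ p, y₂ p * c p = 0).card := by
    refine Finset.card_le_card_of_injOn X ?_ (fun a ha b hb he =>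
      hinj (Finset.mem_filter.mp ha).1 (Finset.mem_filter.mp hb).1 he)
    intro c hc
    have hc' := Finset.mem_filter.mp hc
    refine Finset.mem_filter.mpr ⟨hS c hc'.1, ?_⟩
    rw [← h c hc'.1]
    exact hc'.2
  have h3 := Finset.card_filter_add_card_filter_not (s := W8) (fun c => ∑ p, y₁ p * c p = 0)
  have h4 := Finset.card_filter_add_card_filter_not (s := W8) (fun c => ∑ p, y₂ p * c p = 0)
  have h5 : NE y₁ = (W8.filter fun c => ∑ p, y₁ p * c p = 0).card := rfl
  have h6 : NE y₂ = (W8.filter fun c => ∑ p, y₂ p * c p = 0).card := rfl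
  omega

theorem NE_id {y₁ y₂ : GolayPt → ZMod 2} (h : ∀ c ∈ golayCode, ∑ p, y₁ p * c p = ∑ p, y₂ p * c p) :
    NE y₁ = NE y₂ :=
  NE_eq (X := id) (fun _ hc => hc) (fun _ _ _ _ he => he) (fun c hc => h c (mem_W8.mp hc).1)

theorem NE_act {g : Equiv.Perm GolayPt} (hg : g ∈ M24) (y : GolayPt → ZMod 2) : NE (actW g y) = NE y := by
  symm
  refine NE_eq (X := actW g) ?_ ?_ ?_
  · intro c hc
    obtain ⟨h1, h2⟩ := mem_W8.mp hc
    refine mem_W8.mpr ⟨actW_mem hg h1, ?_⟩
    rw [support_actW, Finset.card_smul_finset]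
    exact h2
  · intro a _ b _ he
    funext p
    have := congrFun he (g p)
    simpa [actW] using this
  · intro c _
    have h1 := Equiv.sum_comp g fun p => actW g y p * actW g c p
    rw [← h1]
    simp [actW]

/-- The list of words of weight 8 or 16. -/
theorem W8L_eq : W8L = codeL.filter (fun m => Nat.beq (pop m) 8 || Nat.beq (pop m) 16) := by decide +kernel

theorem mem_W8L {m : ℕ} : m ∈ W8L ↔ m ∈ codeL ∧ (pop m = 8 ∨ pop m = 16) := by
  rw [W8L_eq, List.mem_filter]
  simp [Nat.beq_eq]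

theorem W8L_nodup : W8L.Nodup := by
  rw [W8L_eq]
  exact codeL_nodup.filter _

theorem W8_eq : W8 = (W8L.map wordOf).toFinset := by
  ext c
  rw [mem_W8, List.mem_toFinset, List.mem_map]
  constructor
  · rintro ⟨h1, h2⟩
    obtain ⟨a, ha, rfl⟩ := (mem_golayCode_iff c).mp h1
    refine ⟨comb a, mem_W8L.mpr ⟨mem_codeL.mpr ⟨a, ha, rfl⟩, ?_⟩, rfl⟩
    rwa [support_wordOf, card_finOf (comb_lt ha)] at h2
  · rintro ⟨m, hm, rfl⟩
    obtain ⟨h1, h2⟩ := mem_W8L.mp hm
    obtain ⟨a, ha, rfl⟩ := mem_codeL.mp h1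
    refine ⟨wordOf_comb_mem a, ?_⟩
    rwa [support_wordOf, card_finOf (comb_lt ha)]

theorem W8L_map_nodup : (W8L.map wordOf).Nodup := by
  refine List.Nodup.map_on ?_ W8L_nodup
  intro a ha b hb he
  exact wordOf_inj (codeL_lt (mem_W8L.mp ha).1) (codeL_lt (mem_W8L.mp hb).1) he

theorem NE_wordOf {r : ℕ} (hr : r < 2 ^ 24) :
    NE (wordOf r) = (W8L.filter fun m => Nat.beq (Nat.mod (pop (Nat.land r m)) 2) 0).length := by
  have h1 : (W8.filter fun c => ∑ p, wordOf r p * c p = 0) =
      ((W8L.filter fun m => Nat.beq (Nat.mod (pop (Nat.land r m)) 2) 0).map wordOf).toFinset := by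
    ext c
    simp only [Finset.mem_filter, W8_eq, List.mem_toFinset, List.mem_map, List.mem_filter]
    constructor
    · rintro ⟨⟨m, hm, rfl⟩, h2⟩
      refine ⟨m, ⟨hm, ?_⟩, rfl⟩
      simp only [wordOf_mul_wordOf] at h2
      have hlt : r &&& m < 2 ^ 24 := lt_of_le_of_lt Nat.and_le_left hr
      rw [sum_wordOf hlt, ZMod.natCast_eq_zero_iff] at h2
      have h3 : Nat.mod (pop (Nat.land r m)) 2 = 0 := Nat.mod_eq_zero_of_dvd h2
      rw [h3]
      rfl
    · rintro ⟨m, ⟨hm, h2⟩, rfl⟩
      refine ⟨⟨m, hm, rfl⟩, ?_⟩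
      simp only [wordOf_mul_wordOf]
      have hlt : r &&& m < 2 ^ 24 := lt_of_le_of_lt Nat.and_le_left hr
      rw [sum_wordOf hlt, ZMod.natCast_eq_zero_iff]
      have h3 : Nat.mod (pop (Nat.land r m)) 2 = 0 := Nat.eq_of_beq_eq_true h2
      exact Nat.dvd_of_mod_eq_zero h3
  show (W8.filter fun c => ∑ p, wordOf r p * c p = 0).card = _
  rw [h1, List.toFinset_card_of_nodup, List.length_map]
  refine List.Nodup.map_on ?_ (W8L_nodup.filter _)
  intro a ha b hb he
  exact wordOf_inj (codeL_lt (mem_W8L.mp (List.mem_filter.mp ha).1).1)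
    (codeL_lt (mem_W8L.mp (List.mem_filter.mp hb).1).1) he

/-- The base duad. -/
def dlt0 : ℕ := 8388609

/-- The base tetrad. -/
def tet0 : ℕ := 8388615

theorem NE_dlt0 : NE (wordOf dlt0) = 814 := by
  rw [NE_wordOf (by decide)]
  decide +kernel

theorem NE_tet0 : NE (wordOf tet0) = 750 := by
  rw [NE_wordOf (by decide)]
  decide +kernel

theorem NE_zero : NE (wordOf 0) = 1518 := by
  rw [NE_wordOf (by decide)]
  decide +kernel

/-- The functionals on the code. -/
theorem rep_func (φ : ↥golayCode →ₗ[ZMod 2] ZMod 2) :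
    ∃ r < 4096, ∀ c : ↥golayCode, φ c = ∑ p, wordOf r p * (c : GolayPt → ZMod 2) p := by
  obtain ⟨g, hg⟩ := LinearMap.exists_extend φ
  let z : GolayPt → ZMod 2 := fun p => g fun j => if p = j then 1 else 0
  have hgz : ∀ w, g w = ∑ p, z p * w p := by
    intro w
    rw [LinearMap.pi_apply_eq_sum_univ g w]
    refine Finset.sum_congr rfl fun p _ => ?_
    rw [smul_eq_mul, mul_comm]
  obtain ⟨a, ha, r, hr, har⟩ := exists_coset_rep (setMask_lt (support₂ z))
  have hz : z = wordOf (comb a) + wordOf r := by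
    rw [← wordOf_xor, ← har, wordOf_setMask_support]
  refine ⟨r, hr, fun c => ?_⟩
  have h1 : φ c = g c := by
    rw [← hg]
    rfl
  rw [h1, hgz, hz]
  simp only [Pi.add_apply, add_mul, Finset.sum_add_distrib]
  rw [dot_self_orthogonal _ _ (wordOf_comb_mem a) c.2, zero_add]

/-- The representative table. -/
def chkRep : ℕ → List ℕ → Bool
  | _, [] => true
  | r, t :: ts => (Nat.blt 0 (Nat.mod (pop r) 2) ||
      ((Nat.beq (pop t) 0 || Nat.beq (pop t) 2 || Nat.beq (pop t) 4) && Nat.blt t (2 ^ 24) && inCode (Nat.xor t r))) &&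
      chkRep (r + 1) ts

theorem chkRep_spec : ∀ (L : List ℕ) (r i : ℕ), chkRep r L = true → i < L.length →
    (0 < Nat.mod (pop (r + i)) 2 ∨ ((pop (L.getD i 0) = 0 ∨ pop (L.getD i 0) = 2 ∨ pop (L.getD i 0) = 4) ∧
      L.getD i 0 < 2 ^ 24 ∧ inCode (Nat.xor (L.getD i 0) (r + i)) = true)) := by
  intro L
  induction L with
  | nil => intro _ _ _ h; simp at h
  | cons t ts ih =>
    intro r i h hi
    simp only [chkRep, Bool.and_eq_true, Bool.or_eq_true, Nat.blt_eq, Nat.beq_eq] at h
    cases i with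
    | zero =>
      rcases h.1 with h1 | h1
      · exact Or.inl h1
      · right
        obtain ⟨⟨h2, h3⟩, h4⟩ := h1
        simp only [List.getD_cons_zero, Nat.add_zero]
        refine ⟨?_, h3, h4⟩
        rcases h2 with (h5 | h5) | h5
        · exact Or.inl h5
        · exact Or.inr (Or.inl h5)
        · exact Or.inr (Or.inr h5)
    | succ i =>
      have := ih (r + 1) i h.2 (by simpa using hi)
      rw [show r + (i + 1) = r + 1 + i by ring]
      simpa using this

theorem chkRep_repT : chkRep 0 repT = true := by decide +kernel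

theorem repT_length : repT.length = 4096 := by decide +kernel

theorem exists_rep {r : ℕ} (hr : r < 4096) (heven : Nat.mod (pop r) 2 = 0) :
    ∃ y < 2 ^ 24, (pop y = 0 ∨ pop y = 2 ∨ pop y = 4) ∧ inCode (Nat.xor y r) = true := by
  have h := chkRep_spec repT 0 r chkRep_repT (by rw [repT_length]; exact hr)
  rw [Nat.zero_add] at h
  rcases h with h | ⟨h1, h2, h3⟩
  · omega
  · exact ⟨_, h2, h1, h3⟩

theorem dot_of_inCode {y r : ℕ} (hy : y < 2 ^ 24) (hr : r < 2 ^ 24) (h : inCode (Nat.xor y r) = true)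
    {c : GolayPt → ZMod 2} (hc : c ∈ golayCode) :
    ∑ p, wordOf y p * c p = ∑ p, wordOf r p * c p := by
  have hlt : Nat.xor y r < 2 ^ 24 := Nat.xor_lt_two_pow hy hr
  have h1 : wordOf (Nat.xor y r) ∈ golayCode := (wordOf_mem_iff_inCode hlt).mpr h
  have h2 := dot_self_orthogonal _ _ h1 hc
  have h3 : wordOf (Nat.xor y r) = wordOf y + wordOf r := wordOf_xor y r
  rw [h3] at h2
  simp only [Pi.add_apply, add_mul, Finset.sum_add_distrib] at h2
  have key : ∀ a b : ZMod 2, a + b = 0 → a = b := by decide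
  exact key _ _ h2

theorem dot_finOf {y : ℕ} (c : GolayPt → ZMod 2) : ∑ p, wordOf y p * c p = ∑ p ∈ finOf y, c p := by
  simp only [wordOf_apply, ite_mul, one_mul, zero_mul]
  rw [Finset.sum_ite, Finset.sum_const_zero, add_zero]
  rfl

theorem exists_not_mem_pts (s : Finset GolayPt) (hs : s.card < 24) : ∃ t, t ∉ s := by
  by_contra hc
  push Not at hc
  have h1 : s = Finset.univ := Finset.eq_univ_iff_forall.mpr hc
  rw [h1] at hs
  exact absurd hs (by decide)

/-- The word of a pair of points. -/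
def dP (a b : GolayPt) : GolayPt → ZMod 2 := fun p => (if p = a then 1 else 0) + (if p = b then 1 else 0)

theorem dot_dP (a b : GolayPt) (w : GolayPt → ZMod 2) : ∑ p, dP a b p * w p = w a + w b := by
  simp only [dP, add_mul, Finset.sum_add_distrib, ite_mul, one_mul, zero_mul, Finset.sum_ite_eq', Finset.mem_univ,
    if_true]

theorem support_dP {a b : GolayPt} (hab : a ≠ b) : support₂ (dP a b) = {a, b} := by
  ext p
  simp only [support₂, Finset.mem_filter, Finset.mem_univ, true_and, Finset.mem_insert, Finset.mem_singleton]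
  simp only [dP]
  by_cases h1 : p = a
  · subst h1
    simp [hab]
  · by_cases h2 : p = b
    · subst h2
      simp [h1]
    · simp [h1, h2]

theorem NE_dP {a b : GolayPt} (hab : a ≠ b) : NE (dP a b) = 814 := by
  obtain ⟨r, hr⟩ := exists_not_mem_pts {a, b} (by
    have := Finset.card_le_two (a := a) (b := b)
    omega)
  obtain ⟨s, hs⟩ := exists_not_mem_pts {a, b, r} (by
    have := Finset.card_le_three (a := a) (b := b) (c := r)
    omega)
  simp only [Finset.mem_insert, Finset.mem_singleton, not_or] at hr hs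
  obtain ⟨g, hg, h1, h2, _, _⟩ := exists_to_base4 hab (Ne.symm hr.1) (Ne.symm hs.1) (Ne.symm hr.2)
    (Ne.symm hs.2.1) (Ne.symm hs.2.2)
  have h3 : actW g (dP a b) = wordOf dlt0 := by
    apply word_eq_of_support
    rw [support_actW, support_wordOf, support_dP hab, Finset.smul_finset_insert, Finset.smul_finset_singleton,
      Equiv.Perm.smul_def, Equiv.Perm.smul_def, h1, h2]
    decide +kernel
  rw [← NE_act hg, h3, NE_dlt0]

theorem NE_tetrad {y : ℕ} (hy : y < 2 ^ 24) (h4 : pop y = 4) : NE (wordOf y) = 750 := by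
  have hc : (finOf y).card = 4 := by rw [card_finOf hy, h4]
  obtain ⟨a, t, hat, hs, ht⟩ := Finset.card_eq_succ.mp hc
  obtain ⟨b, c, d, hbc, hbd, hcd, rfl⟩ := Finset.card_eq_three.mp ht
  simp only [Finset.mem_insert, Finset.mem_singleton, not_or] at hat
  obtain ⟨g, hg, h1, h2, h3, h5⟩ := exists_to_base4 hat.1 hat.2.1 hat.2.2 hbc hbd hcd
  have h6 : actW g (wordOf y) = wordOf tet0 := by
    apply word_eq_of_support
    rw [support_actW, support_wordOf, support_wordOf, ← hs, Finset.smul_finset_insert, Finset.smul_finset_insert,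
      Finset.smul_finset_insert, Finset.smul_finset_singleton]
    simp only [Equiv.Perm.smul_def]
    rw [h1, h2, h3, h5]
    decide +kernel
  rw [← NE_act hg, h6, NE_tet0]

theorem wordOf_of_pop_zero {y : ℕ} (hy : y < 2 ^ 24) (h : pop y = 0) : y = 0 := by
  have hc : (finOf y).card = 0 := by rw [card_finOf hy, h]
  apply finOf_injOn hy (by norm_num)
  rw [Finset.card_eq_zero.mp hc]
  ext p
  simp [mem_finOf]

section Main

variable (x : ↥golayCode ≃ₗ[ZMod 2] ↥golayCode)

open Classical in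
/-- The extension of a map of the code to all words. -/
noncomputable def extX : (GolayPt → ZMod 2) → (GolayPt → ZMod 2) := fun c =>
  if h : c ∈ golayCode then ((x ⟨c, h⟩ : ↥golayCode) : GolayPt → ZMod 2) else 0

theorem extX_val (c : ↥golayCode) : extX x c = ((x c : ↥golayCode) : GolayPt → ZMod 2) := by
  simp only [extX, dif_pos c.2]

theorem one_mem_code : (fun _ => (1 : ZMod 2)) ∈ golayCode := by
  have := wordOf_ones_mem
  rwa [wordOf_onesMask] at this

/-- The image of a functional of a pair of points. -/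
theorem duad_rel (hx1 : ∀ e : ↥golayCode, (e : GolayPt → ZMod 2) = (fun _ => (1 : ZMod 2)) → x e = e)
    (hW : ∀ c : ↥golayCode, (c : GolayPt → ZMod 2) ∈ W8 → ((x c : ↥golayCode) : GolayPt → ZMod 2) ∈ W8)
    {a b : GolayPt} (hab : a ≠ b) :
    ∃ a' b', a' ≠ b' ∧ ∀ c : ↥golayCode,
      ((x c : ↥golayCode) : GolayPt → ZMod 2) a + ((x c : ↥golayCode) : GolayPt → ZMod 2) b =
        (c : GolayPt → ZMod 2) a' + (c : GolayPt → ZMod 2) b' := by
  let φ : ↥golayCode →ₗ[ZMod 2] ZMod 2 :=
    ((LinearMap.proj a : (GolayPt → ZMod 2) →ₗ[ZMod 2] ZMod 2) + LinearMap.proj b) ∘ₗ golayCode.subtype ∘ₗ x.toLinearMap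
  have hφ : ∀ c, φ c = ((x c : ↥golayCode) : GolayPt → ZMod 2) a + ((x c : ↥golayCode) : GolayPt → ZMod 2) b :=
    fun _ => rfl
  obtain ⟨r, hr, hrep⟩ := rep_func φ
  have hr24 : r < 2 ^ 24 := lt_of_lt_of_le hr (by norm_num)
  have heven : Nat.mod (pop r) 2 = 0 := by
    let e : ↥golayCode := ⟨fun _ => 1, one_mem_code⟩
    have h1 : φ e = 0 := by
      rw [hφ, hx1 e rfl]
      rfl
    rw [hrep e] at h1
    have h2 : ∑ p, wordOf r p * 1 = 0 := h1
    simp only [mul_one] at h2
    rw [sum_wordOf hr24, ZMod.natCast_eq_zero_iff] at h2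
    exact Nat.mod_eq_zero_of_dvd h2
  obtain ⟨y, hy, hpop, hcode⟩ := exists_rep hr heven
  have hdot : ∀ c : ↥golayCode, φ c = ∑ p, wordOf y p * (c : GolayPt → ZMod 2) p :=
    fun c => (hrep c).trans (dot_of_inCode hy hr24 hcode c.2).symm
  -- the count
  let X := extX x
  have hXv : ∀ c : ↥golayCode, X c = ((x c : ↥golayCode) : GolayPt → ZMod 2) := extX_val x
  have hNE : NE (wordOf y) = NE (dP a b) := by
    refine NE_eq (X := X) ?_ ?_ ?_
    · intro c hc
      have hcC := (mem_W8.mp hc).1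
      rw [hXv ⟨c, hcC⟩]
      exact hW ⟨c, hcC⟩ hc
    · intro c hc d hd he
      have hcC := (mem_W8.mp (Finset.mem_coe.mp hc)).1
      have hdC := (mem_W8.mp (Finset.mem_coe.mp hd)).1
      rw [hXv ⟨c, hcC⟩, hXv ⟨d, hdC⟩] at he
      have h1 := x.injective (Subtype.ext he)
      exact congrArg Subtype.val h1
    · intro c hc
      have hcC := (mem_W8.mp hc).1
      rw [hXv ⟨c, hcC⟩, dot_dP, ← hφ]
      exact (hdot ⟨c, hcC⟩).symm
  rw [NE_dP hab] at hNE
  rcases hpop with h0 | h2 | h4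
  · exfalso
    rw [wordOf_of_pop_zero hy h0, NE_zero] at hNE
    exact absurd hNE (by norm_num)
  · have hc : (finOf y).card = 2 := by rw [card_finOf hy, h2]
    obtain ⟨a', b', hne, hs⟩ := Finset.card_eq_two.mp hc
    refine ⟨a', b', hne, fun c => ?_⟩
    rw [← hφ, hdot, dot_finOf, hs, Finset.sum_pair hne]
  · exfalso
    rw [NE_tetrad hy h4] at hNE
    exact absurd hNE (by norm_num)

/-- The indicator of a set. -/
def indS (s : Finset GolayPt) (p : GolayPt) : ZMod 2 := if p ∈ s then 1 else 0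

theorem dot_indS (s : Finset GolayPt) (c : GolayPt → ZMod 2) : ∑ p, indS s p * c p = ∑ p ∈ s, c p := by
  simp only [indS, ite_mul, one_mul, zero_mul]
  rw [Finset.sum_ite, Finset.sum_const_zero, add_zero]
  congr 1
  ext p
  simp

/-- Small sets with vanishing sum of functionals. -/
theorem small_rel {s₁ s₂ s₃ : Finset GolayPt}
    (h : ∀ c : ↥golayCode, ∑ p ∈ s₁, (c : GolayPt → ZMod 2) p + ∑ p ∈ s₂, (c : GolayPt → ZMod 2) p +
      ∑ p ∈ s₃, (c : GolayPt → ZMod 2) p = 0)
    (hc : (s₁ ∪ s₂ ∪ s₃).card < 8) (p : GolayPt) : indS s₁ p + indS s₂ p + indS s₃ p = 0 := by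
  let w : GolayPt → ZMod 2 := fun p => indS s₁ p + indS s₂ p + indS s₃ p
  have hw : w ∈ golayCode := by
    apply mem_code_of_orth
    intro c hc'
    simp only [w, add_mul, Finset.sum_add_distrib, dot_indS]
    exact h ⟨c, hc'⟩
  have hsub : support₂ w ⊆ s₁ ∪ s₂ ∪ s₃ := by
    intro q hq
    simp only [support₂, Finset.mem_filter, Finset.mem_univ, true_and] at hq
    by_contra hn
    simp only [Finset.mem_union, not_or] at hn
    apply hq
    simp [w, indS, hn.1.1, hn.1.2, hn.2]
  have hcard := lt_of_le_of_lt (Finset.card_le_card hsub) hc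
  have h0 : (support₂ w).card = 0 := by
    rcases Leech.card_support_code hw with h1 | h1 | h1 | h1 | h1 <;> omega
  have h1 := Finset.card_eq_zero.mp h0
  by_contra hne
  have hq : p ∈ support₂ w := by
    simp only [support₂, Finset.mem_filter, Finset.mem_univ, true_and]
    exact hne
  rw [h1] at hq
  simp at hq

theorem eq_of_small {s₁ s₂ : Finset GolayPt}
    (h : ∀ c : ↥golayCode, ∑ p ∈ s₁, (c : GolayPt → ZMod 2) p = ∑ p ∈ s₂, (c : GolayPt → ZMod 2) p)
    (hc : (s₁ ∪ s₂).card < 8) : s₁ = s₂ := by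
  ext p
  have h1 := small_rel (s₁ := s₁) (s₂ := s₂) (s₃ := ∅) (fun c => by
    rw [h c]
    have key : ∀ a : ZMod 2, a + a + 0 = 0 := by decide
    simpa using key _) (by simpa using hc) p
  simp only [indS, Finset.notMem_empty, if_false, add_zero] at h1
  by_cases h2 : p ∈ s₁ <;> by_cases h3 : p ∈ s₂ <;> simp_all

/-- A family of pairs which meet pairwise. -/
theorem star_lemma {α ι : Type*} [DecidableEq α] (F : ι → Finset α) (hcard : ∀ i, (F i).card = 2)
    (hinj : Function.Injective F) (hmeet : ∀ i j, (F i ∩ F j).Nonempty)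
    (h4 : ∀ i j k : ι, ∃ l, l ≠ i ∧ l ≠ j ∧ l ≠ k) (i₀ : ι) : ∃ u, ∀ i, u ∈ F i := by
  obtain ⟨i₂, hi₂, -, -⟩ := h4 i₀ i₀ i₀
  obtain ⟨u, hu⟩ := hmeet i₀ i₂
  obtain ⟨hu1, hu2⟩ := Finset.mem_inter.mp hu
  have pair : ∀ i, u ∈ F i → ∃ v, v ≠ u ∧ F i = {u, v} := by
    intro i hi
    have h1 : ((F i).erase u).card = 1 := by
      rw [Finset.card_erase_of_mem hi, hcard]
    obtain ⟨v, hv⟩ := Finset.card_eq_one.mp h1
    have hv1 : v ∈ (F i).erase u := by rw [hv]; simp
    refine ⟨v, (Finset.mem_erase.mp hv1).1, ?_⟩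
    rw [← Finset.insert_erase hi, hv]
  obtain ⟨v₁, hv₁, e₁⟩ := pair i₀ hu1
  obtain ⟨v₂, hv₂, e₂⟩ := pair i₂ hu2
  have hv12 : v₁ ≠ v₂ := by
    intro h
    apply hi₂
    apply hinj
    rw [e₁, e₂, h]
  have eqOf : ∀ l {x y : α}, x ≠ y → x ∈ F l → y ∈ F l → F l = {x, y} := by
    intro l x y hxy hx hy
    symm
    apply Finset.eq_of_subset_of_card_le
    · intro z hz
      simp only [Finset.mem_insert, Finset.mem_singleton] at hz
      rcases hz with rfl | rfl
      · exact hx
      · exact hy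
    · rw [hcard, Finset.card_pair hxy]
  refine ⟨u, ?_⟩
  by_contra hc
  push Not at hc
  obtain ⟨j, hj⟩ := hc
  have hjv₁ : v₁ ∈ F j := by
    obtain ⟨z, hz⟩ := hmeet i₀ j
    obtain ⟨hz1, hz2⟩ := Finset.mem_inter.mp hz
    rw [e₁] at hz1
    simp only [Finset.mem_insert, Finset.mem_singleton] at hz1
    rcases hz1 with rfl | rfl
    · exact absurd hz2 hj
    · exact hz2
  have hjv₂ : v₂ ∈ F j := by
    obtain ⟨z, hz⟩ := hmeet i₂ j
    obtain ⟨hz1, hz2⟩ := Finset.mem_inter.mp hz
    rw [e₂] at hz1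
    simp only [Finset.mem_insert, Finset.mem_singleton] at hz1
    rcases hz1 with rfl | rfl
    · exact absurd hz2 hj
    · exact hz2
  have ej := eqOf j hv12 hjv₁ hjv₂
  obtain ⟨l, hl1, hl2, hl3⟩ := h4 i₀ i₂ j
  obtain ⟨z, hz⟩ := hmeet l j
  obtain ⟨hz1, hz2⟩ := Finset.mem_inter.mp hz
  rw [ej] at hz2
  simp only [Finset.mem_insert, Finset.mem_singleton] at hz2
  rcases hz2 with rfl | rfl
  · -- `z = v₁ ∈ F l`
    obtain ⟨w, hw⟩ := hmeet l i₂
    obtain ⟨hw1, hw2⟩ := Finset.mem_inter.mp hw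
    rw [e₂] at hw2
    simp only [Finset.mem_insert, Finset.mem_singleton] at hw2
    rcases hw2 with rfl | rfl
    · apply hl1
      apply hinj
      rw [eqOf l (Ne.symm hv₁) hw1 hz1, e₁]
    · apply hl3
      apply hinj
      rw [eqOf l hv12 hz1 hw1, ej]
  · -- `z = v₂ ∈ F l`
    obtain ⟨w, hw⟩ := hmeet l i₀
    obtain ⟨hw1, hw2⟩ := Finset.mem_inter.mp hw
    rw [e₁] at hw2
    simp only [Finset.mem_insert, Finset.mem_singleton] at hw2
    rcases hw2 with rfl | rfl
    · apply hl2
      apply hinj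
      rw [eqOf l (Ne.symm hv₂) hw1 hz1, e₂]
    · apply hl3
      apply hinj
      rw [eqOf l hv12 hw1 hz1, ej]

/-- The permutation of the points. -/
theorem exists_point_perm
    (hrel : ∀ a b : GolayPt, a ≠ b → ∃ a' b', a' ≠ b' ∧ ∀ c : ↥golayCode,
      ((x c : ↥golayCode) : GolayPt → ZMod 2) a + ((x c : ↥golayCode) : GolayPt → ZMod 2) b =
        (c : GolayPt → ZMod 2) a' + (c : GolayPt → ZMod 2) b') :
    ∃ π : GolayPt → GolayPt, Function.Injective π ∧ ∀ a b, ∀ c : ↥golayCode,
      ((x c : ↥golayCode) : GolayPt → ZMod 2) a + ((x c : ↥golayCode) : GolayPt → ZMod 2) b =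
        (c : GolayPt → ZMod 2) (π a) + (c : GolayPt → ZMod 2) (π b) := by
  have hex : ∀ a b : GolayPt, ∃ s : Finset GolayPt, a ≠ b → s.card = 2 ∧ ∀ c : ↥golayCode,
      ((x c : ↥golayCode) : GolayPt → ZMod 2) a + ((x c : ↥golayCode) : GolayPt → ZMod 2) b =
        ∑ p ∈ s, (c : GolayPt → ZMod 2) p := by
    intro a b
    by_cases hab : a = b
    · exact ⟨∅, fun h => absurd hab h⟩
    · obtain ⟨a', b', hne, h⟩ := hrel a b hab
      refine ⟨{a', b'}, fun _ => ⟨Finset.card_pair hne, fun c => ?_⟩⟩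
      rw [Finset.sum_pair hne]
      exact h c
  choose ψ hψ using hex
  have ucard : ∀ s t u : Finset GolayPt, s.card = 2 → t.card = 2 → u.card = 2 → (s ∪ t ∪ u).card < 8 := by
    intro s t u hs ht hu
    have h1 := Finset.card_union_le (s ∪ t) u
    have h2 := Finset.card_union_le s t
    omega
  have hsym : ∀ a b, a ≠ b → ψ a b = ψ b a := by
    intro a b hab
    apply eq_of_small
    · intro c
      rw [← (hψ a b hab).2 c, ← (hψ b a (Ne.symm hab)).2 c, add_comm]
    · have h2 := Finset.card_union_le (ψ a b) (ψ b a)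
      have h3 := (hψ a b hab).1
      have h4 := (hψ b a (Ne.symm hab)).1
      omega
  have hrel3 : ∀ a b e, a ≠ b → a ≠ e → b ≠ e → ∀ p, indS (ψ a b) p + indS (ψ a e) p + indS (ψ b e) p = 0 := by
    intro a b e hab hae hbe p
    refine small_rel (fun c => ?_) (ucard _ _ _ (hψ a b hab).1 (hψ a e hae).1 (hψ b e hbe).1) p
    rw [← (hψ a b hab).2 c, ← (hψ a e hae).2 c, ← (hψ b e hbe).2 c]
    have key : ∀ u v w : ZMod 2, u + v + (u + w) + (v + w) = 0 := by decide
    exact key _ _ _
  have hmeet : ∀ a b e, a ≠ b → a ≠ e → b ≠ e → (ψ a b ∩ ψ a e).Nonempty := by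
    intro a b e hab hae hbe
    by_contra hne
    rw [Finset.not_nonempty_iff_eq_empty] at hne
    have hdisj : Disjoint (ψ a b) (ψ a e) := Finset.disjoint_iff_inter_eq_empty.mpr hne
    have h1 : ψ a b ∪ ψ a e ⊆ ψ b e := by
      intro p hp
      have h2 := hrel3 a b e hab hae hbe p
      by_contra h3
      simp only [indS, h3, if_false, add_zero] at h2
      rcases Finset.mem_union.mp hp with h4 | h4
      · have h5 : p ∉ ψ a e := Finset.disjoint_left.mp hdisj h4
        simp [h4, h5] at h2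
      · have h5 : p ∉ ψ a b := Finset.disjoint_right.mp hdisj h4
        simp [h4, h5] at h2
    have h2 := Finset.card_le_card h1
    rw [Finset.card_union_of_disjoint hdisj, (hψ a b hab).1, (hψ a e hae).1, (hψ b e hbe).1] at h2
    omega
  have hinj : ∀ a b e, a ≠ b → a ≠ e → ψ a b = ψ a e → b = e := by
    intro a b e hab hae he
    by_contra hbe
    have h1 : ∀ c : ↥golayCode, (c : GolayPt → ZMod 2) b + (c : GolayPt → ZMod 2) e = 0 := by
      intro c
      obtain ⟨d, rfl⟩ := x.surjective c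
      have h2 := (hψ a b hab).2 d
      have h3 := (hψ a e hae).2 d
      rw [he, ← h3] at h2
      have key : ∀ u v w : ZMod 2, u + v = u + w → v + w = 0 := by decide
      exact key _ _ _ h2
    have h2 := small_rel (s₁ := {b, e}) (s₂ := ∅) (s₃ := ∅) (fun c => by
      rw [Finset.sum_pair hbe, h1 c]
      simp) (by
        have := Finset.card_le_two (a := b) (b := e)
        simpa using lt_of_le_of_lt this (by norm_num)) b
    simp [indS] at h2
  have hstar : ∀ a, ∃ u, ∀ b, a ≠ b → u ∈ ψ a b := by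
    intro a
    obtain ⟨b₀, hb₀⟩ := exists_not_mem_pts {a} (by simp)
    simp only [Finset.mem_singleton] at hb₀
    let ι := {b : GolayPt // a ≠ b}
    have h4 : ∀ i j k : ι, ∃ l : ι, l ≠ i ∧ l ≠ j ∧ l ≠ k := by
      intro i j k
      obtain ⟨t, ht⟩ := exists_not_mem_pts {a, i.1, j.1, k.1} (by
        have := Finset.card_le_four (a := a) (b := i.1) (c := j.1) (d := k.1)
        omega)
      simp only [Finset.mem_insert, Finset.mem_singleton, not_or] at ht
      refine ⟨⟨t, Ne.symm ht.1⟩, fun h => ht.2.1 (congrArg Subtype.val h), fun h => ht.2.2.1 (congrArg Subtype.val h),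
        fun h => ht.2.2.2 (congrArg Subtype.val h)⟩
    obtain ⟨u, hu⟩ := star_lemma (ι := ι) (fun b => ψ a b.1) (fun b => (hψ a b.1 b.2).1)
      (fun i j h => Subtype.ext (hinj a i.1 j.1 i.2 j.2 h))
      (fun i j => by
        by_cases hij : i.1 = j.1
        · rw [hij]
          simp only [Finset.inter_self]
          exact Finset.card_pos.mp (by rw [(hψ a j.1 j.2).1]; norm_num)
        · exact hmeet a i.1 j.1 i.2 j.2 hij)
      h4 ⟨b₀, Ne.symm hb₀⟩
    exact ⟨u, fun b hb => hu ⟨b, hb⟩⟩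
  choose π hπ using hstar
  have hπ2 : ∀ a b, a ≠ b → π b ∈ ψ a b := by
    intro a b hab
    rw [hsym a b hab]
    exact hπ b a (Ne.symm hab)
  have hπinj : Function.Injective π := by
    intro a b he
    by_contra hab
    obtain ⟨e, ht⟩ := exists_not_mem_pts {a, b} (by
      have := Finset.card_le_two (a := a) (b := b)
      omega)
    simp only [Finset.mem_insert, Finset.mem_singleton, not_or] at ht
    have h1 := hrel3 a b e hab (Ne.symm ht.1) (Ne.symm ht.2) (π a)
    have h2 : π a ∈ ψ a b := hπ a b hab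
    have h3 : π a ∈ ψ a e := hπ a e (Ne.symm ht.1)
    have h4 : π a ∈ ψ b e := by
      rw [he]
      exact hπ b e (Ne.symm ht.2)
    simp only [indS, h2, h3, h4, if_true] at h1
    exact absurd h1 (by decide)
  refine ⟨π, hπinj, fun a b c => ?_⟩
  by_cases hab : a = b
  · subst hab
    have key : ∀ u v : ZMod 2, u + u = v + v := by decide
    exact key _ _
  · have hne : π a ≠ π b := fun h => hab (hπinj h)
    have h1 : ψ a b = {π a, π b} := by
      symm
      apply Finset.eq_of_subset_of_card_le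
      · intro z hz
        simp only [Finset.mem_insert, Finset.mem_singleton] at hz
        rcases hz with rfl | rfl
        · exact hπ a b hab
        · exact hπ2 a b hab
      · rw [(hψ a b hab).1, Finset.card_pair hne]
    have h2 := (hψ a b hab).2 c
    rw [h1, Finset.sum_pair hne] at h2
    exact h2

end Main

/-- The main theorem: such a map is induced by `M24` modulo `𝟙`. -/
theorem dual_main (X : Subgroup (↥golayCode ≃ₗ[ZMod 2] ↥golayCode))
    (h1 : ∀ x ∈ X, ∀ e : ↥golayCode, (e : GolayPt → ZMod 2) = (fun _ => (1 : ZMod 2)) → x e = e)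
    (horb : ∀ x ∈ X, ∀ c : ↥golayCode, ∃ σ ∈ M24,
      ((x c : ↥golayCode) : GolayPt → ZMod 2) = (fun p => (c : GolayPt → ZMod 2) (σ.symm p)) ∨
      ((x c : ↥golayCode) : GolayPt → ZMod 2) = (fun p => (c : GolayPt → ZMod 2) (σ.symm p)) + fun _ => (1 : ZMod 2))
    (x : ↥golayCode ≃ₗ[ZMod 2] ↥golayCode) (hx : x ∈ X) :
    ∃ σ ∈ M24, ∀ c : ↥golayCode,
      ((x c : ↥golayCode) : GolayPt → ZMod 2) = (fun p => (c : GolayPt → ZMod 2) (σ.symm p)) ∨
      ((x c : ↥golayCode) : GolayPt → ZMod 2) = (fun p => (c : GolayPt → ZMod 2) (σ.symm p)) + fun _ => (1 : ZMod 2) := by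
  have hW : ∀ c : ↥golayCode, (c : GolayPt → ZMod 2) ∈ W8 → ((x c : ↥golayCode) : GolayPt → ZMod 2) ∈ W8 := by
    intro c hc
    obtain ⟨_, hc2⟩ := mem_W8.mp hc
    refine mem_W8.mpr ⟨(x c).2, ?_⟩
    obtain ⟨σ, hσ, h2⟩ := horb x hx c
    have hcard : (support₂ (actW σ (c : GolayPt → ZMod 2))).card = (support₂ (c : GolayPt → ZMod 2)).card := by
      rw [support_actW, Finset.card_smul_finset]
    rcases h2 with h2 | h2
    · have h3 : ((x c : ↥golayCode) : GolayPt → ZMod 2) = actW σ c := h2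
      rw [h3, hcard]
      exact hc2
    · have h3 : ((x c : ↥golayCode) : GolayPt → ZMod 2) = actW σ c + fun _ => (1 : ZMod 2) := h2
      have h4 : support₂ (actW σ (c : GolayPt → ZMod 2) + fun _ => (1 : ZMod 2)) =
          Finset.univ \ support₂ (actW σ (c : GolayPt → ZMod 2)) := by
        ext p
        simp only [support₂, Finset.mem_filter, Finset.mem_univ, true_and, Finset.mem_sdiff, Pi.add_apply]
        generalize actW σ (c : GolayPt → ZMod 2) p = a
        revert a
        decide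
      rw [h3, h4, Finset.card_sdiff_of_subset (Finset.subset_univ _), hcard]
      have hu : (Finset.univ : Finset GolayPt).card = 24 := rfl
      rw [hu]
      rcases hc2 with h5 | h5
      · right
        rw [h5]
      · left
        rw [h5]
  obtain ⟨π, hπ, hrel⟩ := exists_point_perm x (fun a b hab => duad_rel x (h1 x hx) hW hab)
  have hbij : Function.Bijective π := Finite.injective_iff_bijective.mp hπ
  let πe : Equiv.Perm GolayPt := Equiv.ofBijective π hbij
  have hcases : ∀ c : ↥golayCode,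
      ((x c : ↥golayCode) : GolayPt → ZMod 2) = (fun p => (c : GolayPt → ZMod 2) (π p)) ∨
      ((x c : ↥golayCode) : GolayPt → ZMod 2) = (fun p => (c : GolayPt → ZMod 2) (π p)) + fun _ => (1 : ZMod 2) := by
    intro c
    have h2 : ∀ a, ((x c : ↥golayCode) : GolayPt → ZMod 2) a + (c : GolayPt → ZMod 2) (π a) =
        ((x c : ↥golayCode) : GolayPt → ZMod 2) none + (c : GolayPt → ZMod 2) (π none) := by
      intro a
      have h3 := hrel a none c
      have key : ∀ u v w t : ZMod 2, u + v = w + t → u + w = v + t := by decide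
      exact key _ _ _ _ h3
    have h0 : ∀ u : ZMod 2, u = 0 ∨ u = 1 := by decide
    rcases h0 (((x c : ↥golayCode) : GolayPt → ZMod 2) none + (c : GolayPt → ZMod 2) (π none)) with h3 | h3
    · left
      funext a
      have h4 := h2 a
      rw [h3] at h4
      have key : ∀ u v : ZMod 2, u + v = 0 → u = v := by decide
      exact key _ _ h4
    · right
      funext a
      have h4 := h2 a
      rw [h3] at h4
      have key : ∀ u v : ZMod 2, u + v = 1 → u = v + 1 := by decide
      exact key _ _ h4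
  have hπM : πe ∈ M24 := by
    rw [mem_M24_iff]
    intro w hw
    have h3 := hcases ⟨w, hw⟩
    rcases h3 with h3 | h3
    · have h4 : w ∘ πe = ((x ⟨w, hw⟩ : ↥golayCode) : GolayPt → ZMod 2) := by
        rw [h3]
        rfl
      rw [h4]
      exact (x ⟨w, hw⟩).2
    · have h4 : w ∘ πe = ((x ⟨w, hw⟩ : ↥golayCode) : GolayPt → ZMod 2) + fun _ => (1 : ZMod 2) := by
        rw [h3]
        funext p
        simp only [Pi.add_apply, Function.comp]
        have key : ∀ u : ZMod 2, u = u + 1 + 1 := by decide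
        exact key _
      rw [h4]
      exact golayCode.add_mem (x ⟨w, hw⟩).2 one_mem_code
  refine ⟨πe⁻¹, M24.inv_mem hπM, fun c => ?_⟩
  exact hcases c

end Cfsg.Agent.Lib.M24X
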