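import Cfsg.Agent.Lib.M24X.OctadData

set_option autoImplicit false
set_option maxRecDepth 100000

namespace Cfsg.Agent.Lib.M24X

def c0 : ℕ := 8388655

def hexL : List ℕ := [
  429,686,811,903,1167,1319,1450,1581,1699,1806,1929,1956,2215,2350,2443,2575,2729,2853,2956,
  2978,3115,3244,3341,3462,3489,3622,3717,3722,3843,3880,524459,524559,524710,524839,524941,
  525100,525194,525217,525358,525477,525609,525699,525708,525835,525958,525992,526085,526114,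
  526381,526478,526627,526725,526760,526890,526979,527012,527110,527113,527367,527497,527522,
  527626,527652,527884,527905,528256,8388655,8389006,8389027,8389259,8389285,8389389,8389414,
  8389544,8389798,8389801,8389899,8389932,8390021,8390151,8390186,8390284,8390433,8390530,
  8390797,8390826,8390919,8390953,8391076,8391203,8391212,8391302,8391434,8391553,8391694,
  8391717,8391811,8391970,8392072,8392201,8392352,8392452,8913031,8913068,8913189,8913194,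
  8913289,8913422,8913449,8913570,8913667,8913796,8913933,8913955,8914058,8914182,8914336,
  8914468,8914561,8914696,8914955,8914982,8915105,8915212,8915330,8915461,8915592,8915744,
  8916008,8916100,8916225,8916482]

def hexG : List (List ℕ) := [
  [9,19,8,5,13,0,17,10,23,3,1,2,15,20,21,4,12,16,18,11,6,14,22,7],
  [5,11,10,7,13,3,16,8,1,23,0,9,12,20,22,4,21,14,17,19,6,18,15,2]]

def hexOps : List ℕ := [
  1,1,1,1,1,1,2,2,0,0,0,2,1,0,0,0,2,1,2,0,0,2,1,2,2,0,0,0,2,2,1,0,0,0,0,0,0,2,2,1,1,1,0,0,0,2,0,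
  0,0,0,2,1,1,1,1,1,1,0,0,0,2,2,0,0,0,2,1,1,2,0,0,0,2,0,0,0,2,1,0,2,0,0,0,2,1,1,1,0,2,1,0,2,0,0,
  0,2,1,1,0,0,2,2,0,0,0,0,2,1,2,0,0,2,1,0,2,0,0,0,0,0,0,2,2,1,1,1,2,2,0,0,0,2,1,1,0,0,0,0,0,0,0,
  0,2,1,1,1,2,1,1,2,0,0,0,2,2,0,0,0,0,0,2,1,1,1,0,2,2,0,0,0,2,1,2,2,0,0,0,0,0,2,2,0,0,0,0,2,1,1,
  1,2,0,0,2,2,1,0,2,0,0,0,0,2,1,0,2,0,0,0,2,1,1,1,1,0,2,0,0,2,0,0,2,1,1,0,2,0,0,0,0,2,1,1,1,1,0,
  0,0,2,1,1,0,0,0,0,2,1,1,1,0,2,0,0,2,0,0,2]
def hexP : ℕ := 4358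

def hexU : List (List ℕ) := [[19,11,9,10,15,7,18,3,5,1,2,23,4,16,17,20,22,14,12,0,21,13,6,8]]


end Cfsg.Agent.Lib.M24X
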