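import Cfsg.Agent.Lib.M24X.MoreOrbits
import Cfsg.Agent.Lib.M24X.JointData
import Cfsg.Agent.Lib.M24X.Cent

/-!
# Joint stabilisers of two octads.
-/

set_option autoImplicit false
set_option maxRecDepth 100000
set_option maxHeartbeats 1000000

namespace Cfsg.Agent.Lib.M24X

open Cfsg Cfsg.Agent.Lib.Golay MulAction
open scoped Pointwise

/-- A joint stabiliser inside a group is a stabiliser in a stabiliser. -/
theorem card_inf_stabilizer {G α β : Type*} [Group G] [MulAction G α] [MulAction G β] (a : α) (b : β) :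
    Nat.card ↥(stabilizer G a ⊓ stabilizer G b) = Nat.card (stabilizer ↥(stabilizer G a) b) := by
  apply Nat.card_congr
  exact ⟨fun x => ⟨⟨x.1, (Subgroup.mem_inf.mp x.2).1⟩, by
      have := (Subgroup.mem_inf.mp x.2).2
      rw [mem_stabilizer_iff] at this ⊢
      exact this⟩,
    fun x => ⟨x.1.1, Subgroup.mem_inf.mpr ⟨x.1.2, by
      have := x.2
      rw [mem_stabilizer_iff] at this ⊢
      exact this⟩⟩,
    fun _ => rfl, fun _ => rfl⟩

/-- Joint stabilisers of translates are isomorphic. -/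
def jointEquiv {G α β : Type*} [Group G] [MulAction G α] [MulAction G β] (g : G) (a : α) (b : β) :
    ↥(stabilizer G (g • a) ⊓ stabilizer G (g • b)) ≃* ↥(stabilizer G a ⊓ stabilizer G b) where
  toFun x := ⟨g⁻¹ * x.1 * g, by
    obtain ⟨h1, h2⟩ := Subgroup.mem_inf.mp x.2
    rw [mem_stabilizer_iff] at h1 h2
    refine Subgroup.mem_inf.mpr ⟨?_, ?_⟩
    · rw [mem_stabilizer_iff, mul_smul, mul_smul, h1, inv_smul_smul]
    · rw [mem_stabilizer_iff, mul_smul, mul_smul, h2, inv_smul_smul]⟩
  invFun x := ⟨g * x.1 * g⁻¹, by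
    obtain ⟨h1, h2⟩ := Subgroup.mem_inf.mp x.2
    rw [mem_stabilizer_iff] at h1 h2
    refine Subgroup.mem_inf.mpr ⟨?_, ?_⟩
    · rw [mem_stabilizer_iff, mul_smul, mul_smul, inv_smul_smul, h1]
    · rw [mem_stabilizer_iff, mul_smul, mul_smul, inv_smul_smul, h2]⟩
  left_inv x := Subtype.ext (by simp [mul_assoc])
  right_inv x := Subtype.ext (by simp [mul_assoc])
  map_mul' x y := Subtype.ext (by simp [mul_assoc])

theorem orbit_M24_m0 : orbit ↥M24 (finOf m0) = octads := by
  ext x
  constructor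
  · rintro ⟨g, rfl⟩
    exact smul_octad g.2 (finOf_mem_octads (by decide +kernel))
  · intro hx
    obtain ⟨g, hg⟩ := exists_smul_octad hx
    exact ⟨g, hg⟩

/-- The order of the octad stabiliser. -/
theorem card_K0 : Nat.card (stabilizer ↥M24 (finOf m0)) = 322560 := by
  have h1 : (stabilizer ↥M24 (finOf m0)).index = (orbit ↥M24 (finOf m0)).ncard := index_stabilizer _ _
  rw [orbit_M24_m0, octads_ncard] at h1
  have h2 := Subgroup.card_mul_index (stabilizer ↥M24 (finOf m0))
  rw [h1, card_M24] at h2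
  omega

/-- Order of a stabiliser inside the octad stabiliser from the size of an orbit. -/
theorem card_K0_inf {x : Finset GolayPt} {c : ℕ}
    (h : (orbit ↥(stabilizer ↥M24 (finOf m0)) x).ncard = c) :
    Nat.card ↥(stabilizer ↥M24 (finOf m0) ⊓ stabilizer ↥M24 x) * c = 322560 := by
  rw [card_inf_stabilizer]
  have h1 : (stabilizer ↥(stabilizer ↥M24 (finOf m0)) x).index = c := by
    rw [index_stabilizer, h]
  have h2 := Subgroup.card_mul_index (stabilizer ↥(stabilizer ↥M24 (finOf m0)) x)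
  rw [h1, card_K0] at h2
  exact h2

/-- The size of the intersection with the base octad is an invariant. -/
theorem inter_stab (h : ↥(stabilizer ↥M24 (finOf m0))) (x : Finset GolayPt) :
    (finOf m0 ∩ h • x).card = (finOf m0 ∩ x).card := by
  have h1 : ((h : ↥M24) : Equiv.Perm GolayPt) • finOf m0 = finOf m0 := mem_stabilizer_iff.mp h.2
  have h2 : finOf m0 ∩ h • x = ((h : ↥M24) : Equiv.Perm GolayPt) • (finOf m0 ∩ x) := by
    rw [Finset.smul_finset_inter, h1]
    rfl
  rw [h2]
  exact Finset.card_smul_finset ((h : ↥M24) : Equiv.Perm GolayPt) _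

theorem hinv_inter : ∀ m ∈ octadL, (fun x : Finset GolayPt => (finOf m0 ∩ x).card) (finOf m) =
    pop (Nat.land m0 m) := fun _ _ => card_inter_finOf (by decide +kernel)

theorem hs_inter : ∀ h : ↥(stabilizer ↥M24 (finOf m0)), ∀ x ∈ octads,
    h • x ∈ octads ∧ (fun x : Finset GolayPt => (finOf m0 ∩ x).card) (h • x) =
      (fun x : Finset GolayPt => (finOf m0 ∩ x).card) x :=
  fun h x hx => ⟨smul_octad h.1.2 hx, inter_stab h x⟩

theorem joint_orbit0 : orbit ↥(stabilizer ↥M24 (finOf m0)) (finOf joRoot0) =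
      {x | x ∈ octads ∧ (finOf m0 ∩ x).card = 0} ∧
    (orbit ↥(stabilizer ↥M24 (finOf m0)) (finOf joRoot0)).ncard = 30 :=
  have r0 : isOct joRoot0 = true := by decide +kernel
  orbit_mask octGensIn hΩ_octads hinv_inter hs_inter (finOf_mem_octads r0)
    ((hinv_inter _ (isOct_iff.mp r0)).trans (by decide +kernel))
    (ops := joOps0) (p := joP0) (by decide +kernel) (by decide +kernel)

theorem joint_orbit1 : orbit ↥(stabilizer ↥M24 (finOf m0)) (finOf joRoot1) =
      {x | x ∈ octads ∧ (finOf m0 ∩ x).card = 4} ∧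
    (orbit ↥(stabilizer ↥M24 (finOf m0)) (finOf joRoot1)).ncard = 280 :=
  have r0 : isOct joRoot1 = true := by decide +kernel
  orbit_mask octGensIn hΩ_octads hinv_inter hs_inter (finOf_mem_octads r0)
    ((hinv_inter _ (isOct_iff.mp r0)).trans (by decide +kernel))
    (ops := joOps1) (p := joP1) (by decide +kernel) (by decide +kernel)

theorem joint_orbit2 : orbit ↥(stabilizer ↥M24 (finOf m0)) (finOf joRoot2) =
      {x | x ∈ octads ∧ (finOf m0 ∩ x).card = 2} ∧
    (orbit ↥(stabilizer ↥M24 (finOf m0)) (finOf joRoot2)).ncard = 448 :=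
  have r0 : isOct joRoot2 = true := by decide +kernel
  orbit_mask octGensIn hΩ_octads hinv_inter hs_inter (finOf_mem_octads r0)
    ((hinv_inter _ (isOct_iff.mp r0)).trans (by decide +kernel))
    (ops := joOps2) (p := joP2) (by decide +kernel) (by decide +kernel)

/-- Reduction of a pair of octads to a standard first member. -/
theorem exists_pair_std {o o' : Finset GolayPt} (ho : o ∈ octads) (ho' : o' ∈ octads) :
    ∃ g : ↥M24, ∃ x ∈ octads, o = g • finOf m0 ∧ o' = g • x ∧ (finOf m0 ∩ x).card = (o ∩ o').card := by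
  obtain ⟨g, rfl⟩ := exists_smul_octad ho
  refine ⟨g, g⁻¹ • o', smul_octad (g⁻¹).2 ho', rfl, by simp, ?_⟩
  have h2 : g • finOf m0 ∩ o' = g • (finOf m0 ∩ g⁻¹ • o') := by
    have := Finset.smul_finset_inter (a := (g : Equiv.Perm GolayPt)) (s := finOf m0) (t := g⁻¹ • o')
    rw [show (g : Equiv.Perm GolayPt) • (finOf m0 ∩ g⁻¹ • o') = g • (finOf m0 ∩ g⁻¹ • o') from rfl] at this
    rw [this]
    congr 1
    show _ = g • g⁻¹ • o'
    simp
  rw [h2]
  exact (Finset.card_smul_finset (g : Equiv.Perm GolayPt) _).symm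

theorem joint_card (o o' : Finset GolayPt) (ho : o ∈ octads) (ho' : o' ∈ octads) :
    ((o ∩ o').card = 0 → Nat.card ↥(stabilizer ↥M24 o ⊓ stabilizer ↥M24 o') = 10752) ∧
      ((o ∩ o').card = 4 → Nat.card ↥(stabilizer ↥M24 o ⊓ stabilizer ↥M24 o') = 1152) ∧
      ((o ∩ o').card = 2 → Nat.card ↥(stabilizer ↥M24 o ⊓ stabilizer ↥M24 o') = 720) := by
  obtain ⟨g, x, hx, rfl, rfl, hc⟩ := exists_pair_std ho ho'
  have key : Nat.card ↥(stabilizer ↥M24 (g • finOf m0) ⊓ stabilizer ↥M24 (g • x)) =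
      Nat.card ↥(stabilizer ↥M24 (finOf m0) ⊓ stabilizer ↥M24 x) :=
    Nat.card_congr (jointEquiv g _ _).toEquiv
  rw [key]
  refine ⟨fun h => ?_, fun h => ?_, fun h => ?_⟩
  · have h1 : x ∈ orbit ↥(stabilizer ↥M24 (finOf m0)) (finOf joRoot0) := by
      rw [joint_orbit0.1]
      exact ⟨hx, by rw [hc, h]⟩
    have h2 := card_K0_inf (x := x) (c := 30) (by rw [orbit_eq_iff.mpr h1]; exact joint_orbit0.2)
    omega
  · have h1 : x ∈ orbit ↥(stabilizer ↥M24 (finOf m0)) (finOf joRoot1) := by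
      rw [joint_orbit1.1]
      exact ⟨hx, by rw [hc, h]⟩
    have h2 := card_K0_inf (x := x) (c := 280) (by rw [orbit_eq_iff.mpr h1]; exact joint_orbit1.2)
    omega
  · have h1 : x ∈ orbit ↥(stabilizer ↥M24 (finOf m0)) (finOf joRoot2) := by
      rw [joint_orbit2.1]
      exact ⟨hx, by rw [hc, h]⟩
    have h2 := card_K0_inf (x := x) (c := 448) (by rw [orbit_eq_iff.mpr h1]; exact joint_orbit2.2)
    omega

/-! ### Isomorphism with `S6` -/

/-- A group of order `720` acting faithfully on six points is the symmetric group. -/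
theorem iso_perm_six {H α : Type*} [Group H] [DecidableEq α] (hc : Nat.card H = 720)
    (E : Finset α) (hE : E.card = 6) (ρ : H →* Equiv.Perm α) (hρ : ∀ h, ∀ p ∈ E, ρ h p ∈ E)
    (hfaith : ∀ h, (∀ p ∈ E, ρ h p = p) → h = 1) : Nonempty (H ≃* Equiv.Perm (Fin 6)) := by
  have hiff : ∀ (h : H) (x : α), x ∈ E ↔ ρ h x ∈ E := by
    intro h x
    refine ⟨hρ h x, fun hx => ?_⟩
    have := hρ h⁻¹ _ hx
    rw [map_inv] at this
    simpa using this
  let ψ : H →* Equiv.Perm {x // x ∈ E} :=
    { toFun := fun h => (ρ h).subtypePerm (fun x => (hiff h x).symm)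
      map_one' := by
        ext x
        simp
      map_mul' := by
        intro a b
        apply Equiv.ext
        intro x
        apply Subtype.ext
        show ρ (a * b) x.1 = ρ a (ρ b x.1)
        rw [map_mul]
        rfl }
  let e : {x // x ∈ E} ≃ Fin 6 := E.equivFinOfCardEq hE
  let φ : H →* Equiv.Perm (Fin 6) := (Equiv.permCongrHom e).toMonoidHom.comp ψ
  have hinj : Function.Injective φ := by
    rw [injective_iff_map_eq_one]
    intro h hh
    apply hfaith
    intro p hp
    have h1 : ψ h = 1 := by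
      have : (Equiv.permCongrHom e) (ψ h) = 1 := hh
      exact (map_eq_one_iff _ (Equiv.permCongrHom e).injective).mp this
    have h2 := congrArg (fun f : Equiv.Perm {x // x ∈ E} => (f ⟨p, hp⟩ : α)) h1
    simpa [ψ] using h2
  have hcard : Nat.card H = Nat.card (Equiv.Perm (Fin 6)) := by
    rw [hc, Nat.card_eq_fintype_card, Fintype.card_perm]
    rfl
  have : Finite H := Nat.finite_of_card_ne_zero (by omega)
  have hbij := (Nat.bijective_iff_injective_and_card φ).mpr ⟨hinj, hcard⟩
  exact ⟨MulEquiv.ofBijective φ hbij⟩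

/-- The homomorphism from a subgroup of `M24` to the permutations. -/
def toPermHom (H : Subgroup ↥M24) : ↥H →* Equiv.Perm GolayPt := M24.subtype.comp H.subtype

theorem joint2_faith_check : m24T5.all (fun b => m24T6.all fun c =>
    !(Nat.beq (lk (mulL b c) 5) 5) || !(Nat.beq (pull (mulL b c) joRoot2) joRoot2) ||
      (mulL b c == idL)) = true := by decide +kernel

theorem m0_sdiff_points : ∀ i ∈ [23, 0, 1, 2, 3, 5], pt i ∈ finOf m0 \ finOf joRoot2 := by
  decide +kernel

theorem sdiff_card : (finOf m0 \ finOf joRoot2).card = 6 := by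
  have h1 : finOf m0 \ finOf joRoot2 = finOf (Nat.land m0 (Nat.xor joRoot2 16777215)) := by
    ext p
    simp only [Finset.mem_sdiff, mem_finOf]
    revert p
    decide +kernel
  rw [h1, card_finOf (by decide +kernel)]
  decide +kernel

theorem joint2_rep : Nonempty (↥(stabilizer ↥M24 (finOf m0) ⊓ stabilizer ↥M24 (finOf joRoot2)) ≃*
    Equiv.Perm (Fin 6)) := by
  have hc : Nat.card ↥(stabilizer ↥M24 (finOf m0) ⊓ stabilizer ↥M24 (finOf joRoot2)) = 720 := by
    have := card_K0_inf joint_orbit2.2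
    omega
  refine iso_perm_six hc (finOf m0 \ finOf joRoot2) sdiff_card (toPermHom _) ?_ ?_
  · intro h p hp
    obtain ⟨h1, h2⟩ := Subgroup.mem_inf.mp h.2
    have h1' : ((h : ↥M24) : Equiv.Perm GolayPt) • finOf m0 = finOf m0 := mem_stabilizer_iff.mp h1
    have h2' : ((h : ↥M24) : Equiv.Perm GolayPt) • finOf joRoot2 = finOf joRoot2 :=
      mem_stabilizer_iff.mp h2
    show ((h : ↥M24) : Equiv.Perm GolayPt) p ∈ _
    rw [Finset.mem_sdiff] at hp ⊢
    constructor
    · have := (mem_smul_iff ((h : ↥M24) : Equiv.Perm GolayPt) _ _).mpr hp.1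
      rwa [h1'] at this
    · intro hc
      apply hp.2
      apply (mem_smul_iff ((h : ↥M24) : Equiv.Perm GolayPt) _ _).mp
      rwa [h2']
  · intro h hfix
    obtain ⟨h1, h2⟩ := Subgroup.mem_inf.mp h.2
    have h2' : ((h : ↥M24) : Equiv.Perm GolayPt) • finOf joRoot2 = finOf joRoot2 :=
      mem_stabilizer_iff.mp h2
    have hf : ∀ i ∈ [23, 0, 1, 2, 3, 5], ((h : ↥M24) : Equiv.Perm GolayPt) (pt i) = pt i :=
      fun i hi => hfix _ (m0_sdiff_points i hi)
    have hs : ((h : ↥M24) : Equiv.Perm GolayPt) ∈ stabL M24 [23, 0, 1, 2, 3] := by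
      rw [mem_stabL]
      refine ⟨(h : ↥M24).2, fun b hb => hf b ?_⟩
      simp only [List.mem_cons, List.not_mem_nil, or_false] at hb ⊢
      tauto
    obtain ⟨b, hb, c, hcc, hp, he⟩ := dec5 hs
    have h3 := List.all_eq_true.mp (List.all_eq_true.mp joint2_faith_check b hb) c hcc
    have h5 : lk (mulL b c) 5 = 5 := by
      have := hf 5 (by simp)
      rw [he, perm_pt hp (by norm_num)] at this
      have h6 := congrArg idx this
      rwa [idx_pt (isPerm_lt hp (by norm_num)), idx_pt (by norm_num)] at h6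
    have h7 : Nat.beq (pull (mulL b c) joRoot2) joRoot2 = true := by
      rw [← fixed_mask_iff hp (by decide +kernel), ← he]
      exact h2'
    have h8 : Nat.beq (lk (mulL b c) 5) 5 = true := by
      rw [h5]; rfl
    rw [h7, h8] at h3
    simp only [Bool.not_true, Bool.or_false, Bool.false_or, beq_iff_eq] at h3
    apply Subtype.ext
    apply Subtype.ext
    show ((h : ↥M24) : Equiv.Perm GolayPt) = 1
    rw [he, h3, perm_idL]

theorem joint2_iso (o o' : Finset GolayPt) (ho : o ∈ octads) (ho' : o' ∈ octads)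
    (h₂ : (o ∩ o').card = 2) :
    Nonempty (↥(stabilizer ↥M24 o ⊓ stabilizer ↥M24 o') ≃* Equiv.Perm (Fin 6)) := by
  obtain ⟨g, x, hx, rfl, rfl, hc⟩ := exists_pair_std ho ho'
  have h1 : x ∈ orbit ↥(stabilizer ↥M24 (finOf m0)) (finOf joRoot2) := by
    rw [joint_orbit2.1]
    exact ⟨hx, by rw [hc, h₂]⟩
  obtain ⟨k, rfl⟩ := h1
  obtain ⟨e⟩ := joint2_rep
  have hk : (k : ↥M24) • finOf m0 = finOf m0 := mem_stabilizer_iff.mp k.2
  have e1 := jointEquiv g (finOf m0) (k • finOf joRoot2)
  have e2 := jointEquiv (k : ↥M24) (finOf m0) (finOf joRoot2)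
  rw [hk] at e2
  exact ⟨e1.trans (e2.trans e)⟩

end Cfsg.Agent.Lib.M24X
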