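import Cfsg.Agent.Lib.M24X.OctadData

set_option autoImplicit false
set_option maxRecDepth 100000

namespace Cfsg.Agent.Lib.M24X

def tr15 : List (List ℕ) := [
  [8536111,3704512,4536592],
  [8536111,1903248,6337856],
  [8536111,2460752,5780352],
  [8536111,2890176,5350928],
  [8536111,1351424,6889680],
  [8536111,3216208,5024896],
  [8536111,628112,7612992],
  [8536111,1584464,6656640],
  [8536111,2141072,6100032],
  [8536111,337856,7903248],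
  [8536111,4038912,4202192],
  [8536111,3421328,4819776],
  [8536111,832080,7409024],
  [8536111,2702848,5538256],
  [8536111,1161408,7079696]]

def oT0 : List ℕ := [8536111,3704512,4536592]
def oT1 : List ℕ := [8536111,1903248,6337856]
def oT2 : List ℕ := [8536111,2890176,5350928]
def oT3 : List ℕ := [8536111,1584464,6656640]

def oT0Ops : List ℕ := [
  1,1,1,0,0,2,4,0,0,4,4,0,0,0,2,1,0,0,3,2,2,0,0,4,1]
def oT0P : ℕ := 262

def oG1 : List (List ℕ) := [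
  [0,3,2,23,12,17,7,20,4,15,6,11,16,22,1,21,8,5,18,9,10,19,13,14],
  [2,14,1,23,16,3,9,19,12,7,20,4,18,8,0,10,22,5,13,6,21,15,11,17]]

def oT1Ops : List ℕ := [
  1,1,1,0,2,1,0,0,0,0,2,1,1,1,0,0,2,1,0,0,0,2,1]
def oT1P : ℕ := 199

def oG2 : List (List ℕ) := [
  [2,17,3,0,15,1,4,12,7,13,18,6,9,20,14,16,21,5,10,22,8,11,19,23],
  [14,23,2,0,12,1,7,15,18,10,19,8,4,11,3,9,13,17,22,6,21,20,16,5],
  [2,17,0,14,22,23,7,10,16,6,9,12,4,18,3,20,13,1,8,15,21,19,11,5],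
  [0,1,3,14,15,23,16,13,19,22,4,10,9,7,2,18,6,5,21,12,8,11,20,17],
  [2,1,14,3,6,23,4,13,20,22,16,21,7,9,0,11,15,5,10,12,8,18,19,17]]

def oT2Ops : List ℕ := [
  1,3,5,0,0,5,0,0,2,0,3,5,0,0,4,0,5,2,0,4]
def oT2P : ℕ := 199

def oG3 : List (List ℕ) := [
  [17,14,5,23,10,2,18,12,19,13,4,21,7,9,1,16,15,0,6,8,22,11,20,3],
  [3,5,14,0,10,1,11,8,7,13,4,6,19,9,2,16,15,23,21,12,22,18,20,17],
  [3,5,14,0,20,1,8,11,21,4,13,19,6,15,2,22,9,23,7,18,16,12,10,17],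
  [23,2,1,17,9,14,8,18,6,4,22,19,21,15,5,13,20,3,7,11,16,12,10,0],
  [0,1,2,3,4,5,6,7,8,9,10,11,12,13,14,15,16,17,18,19,20,21,22,23],
  [2,23,0,14,4,17,21,19,8,20,15,11,12,13,3,10,16,5,18,7,9,6,22,1]]

def oT3Ops : List ℕ := [
  1,6,0,0,2,6,0,0,4,6,0,0,6]
def oT3P : ℕ := 107


end Cfsg.Agent.Lib.M24X
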