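/-
The fifteen trios through an octad (helper18).
-/
import Cfsg.Agent.Lib.M24X.Joint
import Cfsg.Agent.Lib.M24X.SixSets
import Cfsg.Agent.Lib.M24X.OctTrioData

set_option autoImplicit false
set_option maxRecDepth 100000
set_option maxHeartbeats 1000000

namespace Cfsg.Agent.Lib.M24X

open Cfsg Cfsg.Agent.Lib.Golay MulAction
open scoped Pointwise

theorem GensIn.inf {H K : Subgroup ↥M24} {gens : List (List ℕ)} (hH : GensIn H gens) (hK : GensIn K gens) :
    GensIn (H ⊓ K) gens := by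
  intro l hl
  obtain ⟨h1, h, he, hm⟩ := hH l hl
  obtain ⟨_, k, ke, km⟩ := hK l hl
  have : h = k := Subtype.ext (he.trans ke.symm)
  subst this
  exact ⟨h1, h, he, hm, km⟩

theorem card_inf_stab {G α : Type*} [Group G] [MulAction G α] (K : Subgroup G) (x : α) :
    Nat.card ↥(K ⊓ stabilizer G x) * (orbit ↥K x).ncard = Nat.card K := by
  have h1 : Nat.card ↥(K ⊓ stabilizer G x) = Nat.card (stabilizer ↥K x) := by
    apply Nat.card_congr
    exact ⟨fun y => ⟨⟨y.1, (Subgroup.mem_inf.mp y.2).1⟩, by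
        have := (Subgroup.mem_inf.mp y.2).2
        rw [mem_stabilizer_iff] at this ⊢
        exact this⟩,
      fun y => ⟨y.1.1, Subgroup.mem_inf.mpr ⟨y.1.2, by
        have := y.2
        rw [mem_stabilizer_iff] at this ⊢
        exact this⟩⟩,
      fun _ => rfl, fun _ => rfl⟩
  have h2 : (stabilizer ↥K x).index = (orbit ↥K x).ncard := index_stabilizer _ _
  rw [h1, ← h2]
  exact Subgroup.card_mul_index _

theorem orbit_ge {H : Subgroup ↥M24} {gens : List (List ℕ)} (hG : GensIn H gens) {root ops : List ℕ}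
    {q p c : ℕ} (hc : certF (seenF gens root ops) q p c = true) :
    c ≤ (orbit ↥H (fam root)).ncard := by
  classical
  have hlen := certF_length hc
  have h1 := seen_mem_orbit fam (actF gens) hG.act_fam root ops
  have h2 := certF_nodup hc
  have hs : (((seenF gens root ops).map fam).toFinset : Set (Finset (Finset GolayPt))) ⊆
      orbit ↥H (fam root) := by
    intro x hx
    simp only [Finset.mem_coe, List.mem_toFinset, List.mem_map] at hx
    obtain ⟨a, ha, rfl⟩ := hx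
    exact h1 a ha
  have h3 := Set.ncard_le_ncard hs (Set.toFinite _)
  rw [Set.ncard_coe_finset, List.toFinset_card_of_nodup h2, List.length_map, hlen] at h3
  exact h3

theorem mem_of_card_le {H : Subgroup ↥M24} {L : List (List ℕ)} (hG : GensIn H L) (hnd : L.Nodup)
    (hc : Nat.card H ≤ L.length) {k : ↥M24} (hk : k ∈ H) : ∃ l ∈ L, (k : Equiv.Perm GolayPt) = perm l := by
  classical
  let S' : Set (Equiv.Perm GolayPt) := Set.range fun x : ↥H => ((x : ↥M24) : Equiv.Perm GolayPt)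
  have hinj : Function.Injective fun x : ↥H => ((x : ↥M24) : Equiv.Perm GolayPt) :=
    fun a b h => Subtype.ext (Subtype.ext h)
  have h1 : S'.ncard = Nat.card H := by
    show (Set.range _).ncard = _
    rw [← Set.image_univ, Set.ncard_image_of_injective _ hinj, Set.ncard_univ]
  have h2 : (L.map perm).Nodup := by
    refine List.Nodup.map_on ?_ hnd
    intro a ha b hb he
    exact perm_inj (hG a ha).1 (hG b hb).1 he
  have hs : (((L.map perm).toFinset : Finset (Equiv.Perm GolayPt)) : Set (Equiv.Perm GolayPt)) ⊆ S' := by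
    intro x hx
    simp only [Finset.mem_coe, List.mem_toFinset, List.mem_map] at hx
    obtain ⟨a, ha, rfl⟩ := hx
    obtain ⟨_, h, he, hm⟩ := hG a ha
    exact ⟨⟨h, hm⟩, he⟩
  have h3 := Set.eq_of_subset_of_ncard_le hs (by
    rw [h1, Set.ncard_coe_finset, List.toFinset_card_of_nodup h2, List.length_map]
    exact hc) (Set.toFinite _)
  have h4 : (k : Equiv.Perm GolayPt) ∈ S' := ⟨⟨k, hk⟩, rfl⟩
  rw [← h3] at h4
  simp only [Finset.mem_coe, List.mem_toFinset, List.mem_map] at h4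
  obtain ⟨a, ha, he⟩ := h4
  exact ⟨a, ha, he.symm⟩

/-- The class of trios through the base octad. -/
def Om0 : Set (Finset (Finset GolayPt)) := {T | T ∈ trios ∧ finOf m0 ∈ T}

theorem Om0_smul {h : ↥M24} (hh : h ∈ stabilizer ↥M24 (finOf m0)) {T : Finset (Finset GolayPt)}
    (hT : T ∈ Om0) : h • T ∈ Om0 := by
  refine ⟨smul_trio h.2 hT.1, Finset.mem_smul_finset.mpr ⟨finOf m0, hT.2, ?_⟩⟩
  exact mem_stabilizer_iff.mp hh

theorem trio_bound : ∀ L ∈ trioL, ∀ m ∈ L, m < 2 ^ 24 := by decide +kernel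

theorem tr15_cover : trioL.all (fun L => !memB m0 L || tr15.any (fun t => eqSetB t L)) = true := by
  decide +kernel

theorem hΩ_Om0 : ∀ x ∈ Om0, ∃ L ∈ tr15, fam L = x := by
  rintro x ⟨hx, hm⟩
  obtain ⟨L, hL, rfl⟩ := mem_trios_iff.mp hx
  obtain ⟨m, hm', he⟩ := mem_fam.mp hm
  have h1 : m = m0 := finOf_injOn (trio_bound L hL m hm') (by decide +kernel) he
  subst h1
  have h2 := List.all_eq_true.mp tr15_cover L hL
  simp only [Bool.or_eq_true, Bool.not_eq_true', List.any_eq_true] at h2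
  rcases h2 with h2 | ⟨t, ht, h3⟩
  · have : memB m0 L = true := memB_iff.mpr hm'
    rw [this] at h2
    exact absurd h2 (by simp)
  · exact ⟨t, ht, fam_eq_of_eqSetB h3⟩

theorem fam_oT_mem {t : List ℕ} (ht : t ∈ tr15) : fam t ∈ Om0 := by
  have h1 : ∀ t ∈ tr15, t ∈ trioL ∧ m0 ∈ t := by decide +kernel
  obtain ⟨h2, h3⟩ := h1 t ht
  exact ⟨mem_trios_iff.mpr ⟨t, h2, rfl⟩, mem_fam.mpr ⟨m0, h3, rfl⟩⟩

abbrev K0 : Subgroup ↥M24 := stabilizer ↥M24 (finOf m0)
abbrev K1 : Subgroup ↥M24 := K0 ⊓ stabilizer ↥M24 (fam oT0)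
abbrev K2 : Subgroup ↥M24 := K1 ⊓ stabilizer ↥M24 (fam oT1)
abbrev K3 : Subgroup ↥M24 := K2 ⊓ stabilizer ↥M24 (fam oT2)
abbrev K4 : Subgroup ↥M24 := K3 ⊓ stabilizer ↥M24 (fam oT3)

theorem orbit_K0 : orbit ↥K0 (fam oT0) = Om0 ∧ (orbit ↥K0 (fam oT0)).ncard = 15 := by
  have h := orbit_fam (H := K0) (Ω := Om0) (ΩL := tr15) (inv := fun _ => 0) (invL := fun _ => 0)
    (root := oT0) (ops := oT0Ops) (q := 4096) (p := oT0P) (c := 15) (v := 0) octGensIn hΩ_Om0
    (fun _ _ => rfl) (fun h x hx => ⟨Om0_smul h.2 hx, rfl⟩)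
    (fam_oT_mem (by decide +kernel)) rfl (by decide +kernel) (by decide +kernel)
  refine ⟨?_, h.2⟩
  rw [h.1]
  ext x
  simp

def Om1 : Set (Finset (Finset GolayPt)) := {T | T ∈ Om0 ∧ T ≠ fam oT0}

theorem hG1 : GensIn K1 oG1 :=
  GensIn.inf (gensIn_stabM (by decide +kernel)) (gensIn_stabF (by decide +kernel))

theorem orbit_K1 : orbit ↥K1 (fam oT1) = Om1 ∧ (orbit ↥K1 (fam oT1)).ncard = 14 := by
  have hroot : fam oT1 ∈ Om1 := by
    refine ⟨fam_oT_mem (by decide +kernel), ?_⟩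
    intro he
    have h1 : finOf 1903248 ∈ fam oT1 := mem_fam.mpr ⟨_, by decide +kernel, rfl⟩
    rw [he] at h1
    obtain ⟨m, hm, h2⟩ := mem_fam.mp h1
    have h3 : ∀ m ∈ oT0, m < 2 ^ 24 ∧ m ≠ 1903248 := by decide +kernel
    exact (h3 m hm).2 (finOf_injOn (h3 m hm).1 (by decide +kernel) h2)
  have h := orbit_fam (H := K1) (Ω := Om1) (ΩL := tr15.filter (fun t => !eqSetB t oT0))
    (inv := fun _ => 0) (invL := fun _ => 0)
    (root := oT1) (ops := oT1Ops) (q := 4096) (p := oT1P) (c := 14) (v := 0) hG1 (by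
      rintro x ⟨hx, hne⟩
      obtain ⟨L, hL, rfl⟩ := hΩ_Om0 x hx
      refine ⟨L, List.mem_filter.mpr ⟨hL, ?_⟩, rfl⟩
      by_contra hc
      simp only [Bool.not_eq_true', Bool.not_eq_false] at hc
      exact hne (fam_eq_of_eqSetB hc))
    (fun _ _ => rfl) (fun h x hx => by
      refine ⟨⟨Om0_smul (Subgroup.mem_inf.mp h.2).1 hx.1, ?_⟩, rfl⟩
      intro he
      apply hx.2
      have h1 : (h : ↥M24) • fam oT0 = fam oT0 := mem_stabilizer_iff.mp (Subgroup.mem_inf.mp h.2).2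
      have h2 : (h : ↥M24) • x = (h : ↥M24) • fam oT0 := by
        rw [h1]
        exact he
      exact smul_left_cancel _ h2)
    hroot rfl (by decide +kernel) (by decide +kernel)
  refine ⟨?_, h.2⟩
  rw [h.1]
  ext x
  simp

theorem hG2 : GensIn K2 oG2 :=
  GensIn.inf (GensIn.inf (gensIn_stabM (by decide +kernel)) (gensIn_stabF (by decide +kernel)))
    (gensIn_stabF (by decide +kernel))

theorem hG3 : GensIn K3 oG3 :=
  GensIn.inf (GensIn.inf (GensIn.inf (gensIn_stabM (by decide +kernel)) (gensIn_stabF (by decide +kernel)))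
    (gensIn_stabF (by decide +kernel))) (gensIn_stabF (by decide +kernel))

theorem card_K4 : Nat.card ↥K4 ≤ 16 := by
  have h0 : Nat.card ↥K0 = 322560 := card_K0
  have h1 := card_inf_stab K0 (fam oT0)
  rw [orbit_K0.2, h0] at h1
  have h2 := card_inf_stab K1 (fam oT1)
  rw [orbit_K1.2] at h2
  have h3 := card_inf_stab K2 (fam oT2)
  have h4 := card_inf_stab K3 (fam oT3)
  have g3 : 12 ≤ (orbit ↥K2 (fam oT2)).ncard :=
    orbit_ge hG2 (q := 4096) (p := oT2P) (ops := oT2Ops) (by decide +kernel)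
  have g4 : 8 ≤ (orbit ↥K3 (fam oT3)).ncard :=
    orbit_ge hG3 (q := 4096) (p := oT3P) (ops := oT3Ops) (by decide +kernel)
  have h5 : Nat.card ↥K4 * 8 ≤ Nat.card ↥K3 := by
    rw [← h4]
    exact Nat.mul_le_mul_left _ g4
  have h6 : Nat.card ↥K3 * 12 ≤ Nat.card ↥K2 := by
    rw [← h3]
    exact Nat.mul_le_mul_left _ g3
  have h7 : Nat.card ↥K2 * 14 = Nat.card ↥K1 := h2
  have h8 : Nat.card ↥K1 * 15 = 322560 := h1
  omega

def tl : List (List ℕ) := stab5L.filter (fun l => Nat.beq (lk l 5) 5 && Nat.beq (lk l 14) 14 && Nat.beq (lk l 17) 17)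

theorem tl_length : tl.length = 16 := by decide +kernel

theorem tl_nodup : tl.Nodup := stab5L_nodup.filter _

theorem hGtl : GensIn K4 tl :=
  GensIn.inf (GensIn.inf (GensIn.inf (GensIn.inf (gensIn_stabM (by decide +kernel))
    (gensIn_stabF (by decide +kernel))) (gensIn_stabF (by decide +kernel)))
      (gensIn_stabF (by decide +kernel))) (gensIn_stabF (by decide +kernel))

theorem base_fix_of_trios {k : ↥M24} (hk : k ∈ K0) (hT : ∀ T ∈ Om0, k • T = T) :
    ∀ p ∈ finOf m0, (k : Equiv.Perm GolayPt) p = p := by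
  have h1 : k ∈ K4 := by
    refine Subgroup.mem_inf.mpr ⟨Subgroup.mem_inf.mpr ⟨Subgroup.mem_inf.mpr ⟨Subgroup.mem_inf.mpr ⟨hk, ?_⟩, ?_⟩, ?_⟩, ?_⟩
    · exact mem_stabilizer_iff.mpr (hT _ (fam_oT_mem (by decide +kernel)))
    · exact mem_stabilizer_iff.mpr (hT _ (fam_oT_mem (by decide +kernel)))
    · exact mem_stabilizer_iff.mpr (hT _ (fam_oT_mem (by decide +kernel)))
    · exact mem_stabilizer_iff.mpr (hT _ (fam_oT_mem (by decide +kernel)))
  obtain ⟨l, hl, he⟩ := mem_of_card_le hGtl tl_nodup (by rw [tl_length]; exact card_K4) h1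
  intro p hp
  rw [he]
  apply idx_injective
  rw [idx_perm (hGtl l hl).1]
  have h2 : ∀ l ∈ tl, ∀ p : GolayPt, m0.testBit (idx p) = true → lk l (idx p) = idx p := by decide +kernel
  exact h2 l hl p (mem_finOf.mp hp)

theorem base_trios_of_fix {k : ↥M24} (hf : ∀ p ∈ finOf m0, (k : Equiv.Perm GolayPt) p = p) :
    ∀ T ∈ Om0, k • T = T := by
  have hb : ∀ i, (k : Equiv.Perm GolayPt) (base5 i) = base5 i := by
    intro i
    apply hf
    revert i
    decide +kernel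
  obtain ⟨l, hl, he⟩ := exists_stab5L k.2 hb
  have hp : isPerm l = true := stab5L_perm hl
  have hlk : ∀ i, i < 24 → m0.testBit i = true → lk l i = i := by
    intro i hi hb
    have h1 := hf (pt i) (mem_finOf.mpr (by rwa [idx_pt hi]))
    have h2 := congrArg idx h1
    rw [he, idx_perm hp, idx_pt hi] at h2
    exact h2
  have htl : l ∈ tl := by
    refine List.mem_filter.mpr ⟨hl, ?_⟩
    simp only [Bool.and_eq_true, Nat.beq_eq]
    exact ⟨⟨hlk 5 (by norm_num) (by decide +kernel), hlk 14 (by norm_num) (by decide +kernel)⟩,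
      hlk 17 (by norm_num) (by decide +kernel)⟩
  have hall : ∀ l ∈ tl, ∀ t ∈ tr15, eqSetB (t.map (pull l)) t = true := by decide +kernel
  intro T hT
  obtain ⟨t, ht, rfl⟩ := hΩ_Om0 T hT
  show (k : Equiv.Perm GolayPt) • fam t = fam t
  rw [he]
  have h3 := smul_fam' hp t
  rwa [fam_eq_of_eqSetB (hall l htl t ht)] at h3

/-- The transitive action. -/
theorem to_std {T₁ T₂ : Finset (Finset GolayPt)} (h1 : T₁ ∈ Om0) (h2 : T₂ ∈ Om0) (hne : T₁ ≠ T₂) :
    ∃ h ∈ K0, h • T₁ = fam oT0 ∧ h • T₂ = fam oT1 := by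
  have ha : T₁ ∈ orbit ↥K0 (fam oT0) := by
    rw [orbit_K0.1]
    exact h1
  obtain ⟨a, rfl⟩ := ha
  have ha' : ((a : ↥M24)⁻¹) ∈ K0 := K0.inv_mem a.2
  have h3 : ((a : ↥M24)⁻¹) • T₂ ∈ Om1 := by
    refine ⟨Om0_smul ha' h2, ?_⟩
    intro he
    apply hne
    have h4 : T₂ = (a : ↥M24) • fam oT0 := by
      rw [← he, smul_inv_smul]
    exact h4.symm
  have hb : ((a : ↥M24)⁻¹) • T₂ ∈ orbit ↥K1 (fam oT1) := by
    rw [orbit_K1.1]
    exact h3
  obtain ⟨b, hb⟩ := hb
  have hb1 : ((b : ↥M24)) • fam oT1 = ((a : ↥M24)⁻¹) • T₂ := hb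
  have hbm := Subgroup.mem_inf.mp b.2
  refine ⟨(b : ↥M24)⁻¹ * (a : ↥M24)⁻¹, K0.mul_mem (K0.inv_mem hbm.1) ha', ?_, ?_⟩
  · rw [mul_smul]
    have h5 : ((a : ↥M24)⁻¹) • ((a : ↥K0) • fam oT0) = fam oT0 := by
      show ((a : ↥M24)⁻¹) • ((a : ↥M24) • fam oT0) = fam oT0
      rw [inv_smul_smul]
    rw [h5, inv_smul_eq_iff]
    exact (mem_stabilizer_iff.mp hbm.2).symm
  · rw [mul_smul, ← hb1, inv_smul_smul]

/-- The main theorem on the fifteen trios. -/
theorem octad_trios (o : Finset GolayPt) (ho : o ∈ octads) :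
    {T : Finset (Finset GolayPt) | T ∈ trios ∧ o ∈ T}.ncard = 15 ∧
    (∀ T₁ T₂ T₁' T₂' : Finset (Finset GolayPt), T₁ ∈ trios → T₂ ∈ trios → T₁' ∈ trios → T₂' ∈ trios →
      o ∈ T₁ → o ∈ T₂ → o ∈ T₁' → o ∈ T₂' → T₁ ≠ T₂ → T₁' ≠ T₂' →
        ∃ g ∈ M24, g • o = o ∧ g • T₁ = T₁' ∧ g • T₂ = T₂') ∧
    ∀ g ∈ M24, g • o = o → ((∀ T ∈ trios, o ∈ T → g • T = T) ↔ ∀ p ∈ o, g p = p) := by
  obtain ⟨u, rfl⟩ := exists_smul_octad ho
  have hu' : ∀ T : Finset (Finset GolayPt), (T ∈ trios ∧ u • finOf m0 ∈ T) ↔ u⁻¹ • T ∈ Om0 := by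
    intro T
    constructor
    · rintro ⟨h1, h2⟩
      refine ⟨smul_trio (u⁻¹).2 h1, Finset.mem_smul_finset.mpr ⟨u • finOf m0, h2, inv_smul_smul _ _⟩⟩
    · rintro ⟨h1, h2⟩
      have h3 := smul_trio u.2 h1
      have h4 : (u : Equiv.Perm GolayPt) • (u⁻¹ • T) = T := smul_inv_smul u T
      rw [h4] at h3
      refine ⟨h3, ?_⟩
      obtain ⟨y, hy, hy2⟩ := Finset.mem_smul_finset.mp h2
      have h5 : y = u • finOf m0 := by
        rw [← hy2]
        exact (smul_inv_smul u y).symm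
      rwa [← h5]
  refine ⟨?_, ?_, ?_⟩
  · have h1 : {T : Finset (Finset GolayPt) | T ∈ trios ∧ u • finOf m0 ∈ T} = u • Om0 := by
      ext T
      rw [Set.mem_ofPred_eq, hu', Set.mem_smul_set_iff_inv_smul_mem]
    rw [h1, Set.ncard_smul_set, ← orbit_K0.1]
    exact orbit_K0.2
  · intro T₁ T₂ T₁' T₂' h1 h2 h1' h2' m1 m2 m1' m2' hne hne'
    have a1 := (hu' T₁).mp ⟨h1, m1⟩
    have a2 := (hu' T₂).mp ⟨h2, m2⟩
    have a1' := (hu' T₁').mp ⟨h1', m1'⟩
    have a2' := (hu' T₂').mp ⟨h2', m2'⟩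
    obtain ⟨v, hv, e1, e2⟩ := to_std a1 a2 (fun h => hne (smul_left_cancel _ h))
    obtain ⟨v', hv', e1', e2'⟩ := to_std a1' a2' (fun h => hne' (smul_left_cancel _ h))
    refine ⟨((u * v'⁻¹ * v * u⁻¹ : ↥M24) : Equiv.Perm GolayPt), (u * v'⁻¹ * v * u⁻¹ : ↥M24).2, ?_, ?_, ?_⟩
    · show (u * v'⁻¹ * v * u⁻¹ : ↥M24) • (u • finOf m0) = u • finOf m0
      have hv1 : v • finOf m0 = finOf m0 := mem_stabilizer_iff.mp hv
      have hv2 : v' • finOf m0 = finOf m0 := mem_stabilizer_iff.mp hv'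
      have hv3 : v'⁻¹ • finOf m0 = finOf m0 := by
        rw [inv_smul_eq_iff, hv2]
      rw [mul_smul, mul_smul, mul_smul, inv_smul_smul, hv1, hv3]
    · show (u * v'⁻¹ * v * u⁻¹ : ↥M24) • T₁ = T₁'
      rw [mul_smul, mul_smul, mul_smul, e1, ← e1', inv_smul_smul, smul_inv_smul]
    · show (u * v'⁻¹ * v * u⁻¹ : ↥M24) • T₂ = T₂'
      rw [mul_smul, mul_smul, mul_smul, e2, ← e2', inv_smul_smul, smul_inv_smul]
  · intro g hg hgo
    let g' : ↥M24 := ⟨g, hg⟩
    let k : ↥M24 := u⁻¹ * g' * u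
    have hk : k ∈ K0 := by
      rw [mem_stabilizer_iff]
      show (u⁻¹ * g' * u) • finOf m0 = finOf m0
      rw [mul_smul, mul_smul]
      have : g' • u • finOf m0 = u • finOf m0 := hgo
      rw [this, inv_smul_smul]
    constructor
    · intro hT
      have h1 : ∀ T ∈ Om0, k • T = T := by
        intro T hT'
        have h2 : u • T ∈ trios := smul_trio u.2 hT'.1
        have h3 : u • finOf m0 ∈ u • T := by
          have := hT'.2
          exact Finset.smul_mem_smul_finset this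
        have h4 : g' • (u • T) = u • T := hT _ h2 h3
        show (u⁻¹ * g' * u) • T = T
        rw [mul_smul, mul_smul, h4, inv_smul_smul]
      have h5 := base_fix_of_trios hk h1
      intro p hp
      obtain ⟨q, hq, rfl⟩ := Finset.mem_smul_finset.mp hp
      have h6 := h5 q hq
      have h7 : (u : Equiv.Perm GolayPt)⁻¹ (g ((u : Equiv.Perm GolayPt) q)) = q := h6
      show g ((u : Equiv.Perm GolayPt) q) = (u : Equiv.Perm GolayPt) q
      calc g ((u : Equiv.Perm GolayPt) q)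
          = (u : Equiv.Perm GolayPt) ((u : Equiv.Perm GolayPt)⁻¹ (g ((u : Equiv.Perm GolayPt) q))) := by simp
        _ = (u : Equiv.Perm GolayPt) q := by rw [h7]
    · intro hp T hT hoT
      have h1 : ∀ q ∈ finOf m0, (k : Equiv.Perm GolayPt) q = q := by
        intro q hq
        have h2 := hp ((u : Equiv.Perm GolayPt) q) (Finset.smul_mem_smul_finset hq)
        show (u : Equiv.Perm GolayPt)⁻¹ (g ((u : Equiv.Perm GolayPt) q)) = q
        rw [h2]
        simp
      have h3 := base_trios_of_fix h1 _ ((hu' T).mp ⟨hT, hoT⟩)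
      have h4 : (u⁻¹ * g' * u) • (u⁻¹ • T) = u⁻¹ • T := h3
      rw [mul_smul, mul_smul, smul_inv_smul] at h4
      exact smul_left_cancel _ h4

end Cfsg.Agent.Lib.M24X
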