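/-
The stabiliser of a hexad in `M12` (helper18).
-/
import Cfsg.Agent.Lib.M24X.OctTrios
import Cfsg.Agent.Lib.M24X.HexData
import Cfsg.Agent.Lib.Golay.M12Chain
import Cfsg.Prelude.Def_SporadicCombinatorics

set_option autoImplicit false
set_option maxRecDepth 100000
set_option maxHeartbeats 1000000

namespace Cfsg.Agent.Lib.M24X

open Cfsg Cfsg.Agent.Lib.Golay MulAction
open scoped Pointwise

theorem orbit_M24_D0 : orbit ↥M24 Golay.D0 = dodecads := by
  ext x
  constructor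
  · rintro ⟨g, rfl⟩
    exact smul_dodecad g.2 D0_mem
  · intro hx
    obtain ⟨g, hg, he⟩ := exists_smul_D0 hx
    exact ⟨⟨g, hg⟩, he⟩

theorem card_M12' : Nat.card (stabilizer ↥M24 Golay.D0) = 95040 := by
  have h1 : (stabilizer ↥M24 Golay.D0).index = (orbit ↥M24 Golay.D0).ncard := index_stabilizer _ _
  rw [orbit_M24_D0, dodecads_ncard] at h1
  have h2 := Subgroup.card_mul_index (stabilizer ↥M24 Golay.D0)
  rw [h1, card_M24] at h2
  omega

theorem smul_hexadsOn (g : ↥M24) {d x : Finset GolayPt} (hx : x ∈ hexadsOn d) : g • x ∈ hexadsOn (g • d) := by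
  obtain ⟨h1, o, ho, rfl⟩ := hx
  refine ⟨?_, g • o, smul_octad g.2 ho, ?_⟩
  · rw [Finset.card_smul_finset]
    exact h1
  · exact (Finset.smul_finset_inter (a := (g : Equiv.Perm GolayPt))).symm

theorem hexL_check : octadL.all (fun m => !(Nat.beq (pop (Nat.land m Golay.d0)) 6) ||
    memB (Nat.land m Golay.d0) hexL) = true := by decide +kernel

theorem hΩ_hex : ∀ x ∈ hexadsOn Golay.D0, ∃ L ∈ hexL, finOf L = x := by
  rintro x ⟨h1, o, ho, rfl⟩
  obtain ⟨m, hm, rfl⟩ := (mem_octads_iff _).mp ho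
  have h2 := List.all_eq_true.mp hexL_check m hm
  have hlt : m < 2 ^ 24 := octadL_lt hm
  have h3 : pop (Nat.land m Golay.d0) = 6 := by
    rw [← card_inter_finOf hlt]
    exact h1
  simp only [h3, Bool.or_eq_true, Bool.not_eq_true'] at h2
  rcases h2 with h2 | h2
  · exact absurd h2 (by decide)
  · exact ⟨_, memB_iff.mp h2, finOf_and _ _⟩

theorem hexG_in : GensIn (stabilizer ↥M24 Golay.D0) hexG := gensIn_stabM (by decide +kernel)

theorem finOf_c0_mem : finOf c0 ∈ hexadsOn Golay.D0 := by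
  refine ⟨?_, finOf m0, finOf_mem_octads (by decide +kernel), ?_⟩
  · rw [card_finOf (by decide +kernel)]
    decide +kernel
  · have h := finOf_and m0 Golay.d0
    rw [show Golay.D0 = finOf Golay.d0 from rfl, ← h]
    congr 1

theorem orbit_hex : orbit ↥(stabilizer ↥M24 Golay.D0) (finOf c0) = hexadsOn Golay.D0 ∧
    (orbit ↥(stabilizer ↥M24 Golay.D0) (finOf c0)).ncard = 132 := by
  have h := orbit_mask (H := stabilizer ↥M24 Golay.D0) (Ω := hexadsOn Golay.D0) (ΩL := hexL)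
    (inv := fun _ => 0) (invL := fun _ => 0)
    (root := c0) (ops := hexOps) (p := hexP) (c := 132) (v := 0) hexG_in hΩ_hex
    (fun _ _ => rfl) (fun h x hx => by
      refine ⟨?_, rfl⟩
      have h1 := smul_hexadsOn (h : ↥M24) hx
      have h2 : (h : ↥M24) • Golay.D0 = Golay.D0 := mem_stabilizer_iff.mp h.2
      rw [h2] at h1
      exact h1)
    finOf_c0_mem rfl (by decide +kernel) (by decide +kernel)
  refine ⟨?_, h.2⟩
  rw [h.1]
  ext x
  simp

abbrev H6 : Subgroup ↥M24 := stabilizer ↥M24 Golay.D0 ⊓ stabilizer ↥M24 (finOf c0)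

theorem card_H6 : Nat.card ↥H6 = 720 := by
  have h1 := card_inf_stab (stabilizer ↥M24 Golay.D0) (finOf c0)
  rw [orbit_hex.2, card_M12'] at h1
  show Nat.card ↥(stabilizer ↥M24 Golay.D0 ⊓ stabilizer ↥M24 (finOf c0)) = 720
  omega

/-- Faithfulness on the standard hexad. -/
theorem std_faith {k : ↥M24} (hk : k ∈ stabilizer ↥M24 Golay.D0)
    (hf : ∀ p ∈ finOf c0, (k : Equiv.Perm GolayPt) p = p) : k = 1 := by
  have h1 : (k : Equiv.Perm GolayPt) ∈ stabL M12B [23, 0, 1, 2, 3] := by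
    rw [mem_stabL]
    refine ⟨mem_M12B_iff.mpr ⟨k.2, mem_stabilizer_iff.mp hk⟩, ?_⟩
    intro b hb
    apply hf
    revert b
    decide +kernel
  rw [stab12_trivial, Subgroup.mem_bot] at h1
  exact Subtype.ext h1

theorem H6_iso : Nonempty (↥H6 ≃* Equiv.Perm (Fin 6)) := by
  refine iso_perm_six card_H6 (finOf c0) ?_ (toPermHom _) ?_ ?_
  · rw [card_finOf (by decide +kernel)]
    decide +kernel
  · intro h p hp
    have h1 : ((h : ↥M24) : Equiv.Perm GolayPt) • finOf c0 = finOf c0 :=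
      mem_stabilizer_iff.mp (Subgroup.mem_inf.mp h.2).2
    show ((h : ↥M24) : Equiv.Perm GolayPt) p ∈ _
    rw [← h1]
    exact Finset.smul_mem_smul_finset hp
  · intro h hf
    have := std_faith (Subgroup.mem_inf.mp h.2).1 hf
    exact Subtype.ext this

/-- The swap of the hexad and its complement. -/
theorem exists_swap : ∃ u ∈ stabilizer ↥M24 Golay.D0, u • finOf c0 = Golay.D0 \ finOf c0 := by
  have hG : GensIn (stabilizer ↥M24 Golay.D0) hexU := gensIn_stabM (by decide +kernel)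
  obtain ⟨h, hh⟩ := hG.act_mask 0 c0
  refine ⟨h, h.2, ?_⟩
  have h1 : Golay.D0 \ finOf c0 = finOf (actM hexU 0 c0) := by
    ext p
    simp only [Finset.mem_sdiff, mem_finOf, Golay.D0]
    revert p
    decide +kernel
  rw [h1, hh]
  rfl

theorem std_faith' {k : ↥M24} (hk : k ∈ stabilizer ↥M24 Golay.D0)
    (hf : ∀ p ∈ Golay.D0 \ finOf c0, (k : Equiv.Perm GolayPt) p = p) : k = 1 := by
  obtain ⟨u, hu, hu2⟩ := exists_swap
  have h1 : u⁻¹ * k * u = 1 := by
    apply std_faith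
    · exact (stabilizer ↥M24 Golay.D0).mul_mem ((stabilizer ↥M24 Golay.D0).mul_mem
        ((stabilizer ↥M24 Golay.D0).inv_mem hu) hk) hu
    · intro p hp
      have h2 : (u : Equiv.Perm GolayPt) p ∈ Golay.D0 \ finOf c0 := by
        rw [← hu2]
        exact Finset.smul_mem_smul_finset hp
      have h3 := hf _ h2
      show (u : Equiv.Perm GolayPt)⁻¹ ((k : Equiv.Perm GolayPt) ((u : Equiv.Perm GolayPt) p)) = p
      rw [h3]
      simp
  have h4 : k = u * (u⁻¹ * k * u) * u⁻¹ := by group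
  rw [h4, h1]
  simp

/-- The main theorem. -/
theorem hexad_stabilizer (d : Finset GolayPt) (hd : d ∈ dodecads) (C : Finset GolayPt) (hC : C ∈ hexadsOn d) :
    Nonempty (↥(stabilizer M24 d ⊓ stabilizer M24 C) ≃* Equiv.Perm (Fin 6)) ∧
    (∀ g ∈ stabilizer M24 d ⊓ stabilizer M24 C,
      (∀ p ∈ C, ((g : ↥M24) : Equiv.Perm GolayPt) p = p) → g = 1) ∧
    ∀ g ∈ stabilizer M24 d ⊓ stabilizer M24 C,
      (∀ p ∈ d \ C, ((g : ↥M24) : Equiv.Perm GolayPt) p = p) → g = 1 := by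
  obtain ⟨a, ha, rfl⟩ := exists_smul_D0 hd
  let a' : ↥M24 := ⟨a, ha⟩
  have hC' : a'⁻¹ • C ∈ hexadsOn Golay.D0 := by
    have h1 := smul_hexadsOn a'⁻¹ hC
    have h2 : a'⁻¹ • (a • Golay.D0) = Golay.D0 := inv_smul_smul a' _
    rwa [h2] at h1
  have h3 : a'⁻¹ • C ∈ orbit ↥(stabilizer ↥M24 Golay.D0) (finOf c0) := by
    rw [orbit_hex.1]
    exact hC'
  obtain ⟨b, hb⟩ := h3
  have hb' : (b : ↥M24) • finOf c0 = a'⁻¹ • C := hb
  have hbD : (b : ↥M24) • Golay.D0 = Golay.D0 := mem_stabilizer_iff.mp b.2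
  let w : ↥M24 := a' * b
  have hw1 : a • Golay.D0 = w • Golay.D0 := by
    show a' • Golay.D0 = (a' * b) • Golay.D0
    rw [mul_smul]
    show a' • Golay.D0 = a' • ((b : ↥M24) • Golay.D0)
    rw [hbD]
  have hw2 : C = w • finOf c0 := by
    show C = (a' * b) • finOf c0
    rw [mul_smul]
    show C = a' • ((b : ↥M24) • finOf c0)
    rw [hb', smul_inv_smul]
  have e1 : (a • Golay.D0 : Finset GolayPt) = w • Golay.D0 := hw1
  rw [e1, hw2]
  have key : ∀ g ∈ stabilizer M24 (w • Golay.D0) ⊓ stabilizer M24 (w • finOf c0),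
      w⁻¹ * g * w ∈ stabilizer ↥M24 Golay.D0 := by
    intro g hg
    have h4 : g • (w • Golay.D0) = w • Golay.D0 := mem_stabilizer_iff.mp (Subgroup.mem_inf.mp hg).1
    rw [mem_stabilizer_iff, mul_smul, mul_smul, h4, inv_smul_smul]
  have key2 : ∀ g : ↥M24, w⁻¹ * g * w = 1 → g = 1 := by
    intro g hg
    have h4 : g = w * (w⁻¹ * g * w) * w⁻¹ := by group
    rw [h4, hg]
    simp
  refine ⟨?_, ?_, ?_⟩
  · obtain ⟨e⟩ := H6_iso
    exact ⟨(jointEquiv w Golay.D0 (finOf c0)).trans e⟩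
  · intro g hg hf
    apply key2
    apply std_faith (key g hg)
    intro p hp
    have h5 := hf ((w : Equiv.Perm GolayPt) p) (Finset.smul_mem_smul_finset hp)
    show (w : Equiv.Perm GolayPt)⁻¹ ((g : Equiv.Perm GolayPt) ((w : Equiv.Perm GolayPt) p)) = p
    rw [h5]
    simp
  · intro g hg hf
    apply key2
    apply std_faith' (key g hg)
    intro p hp
    have h5 := hf ((w : Equiv.Perm GolayPt) p) (by
      rw [← Finset.smul_finset_sdiff]
      exact Finset.smul_mem_smul_finset hp)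
    show (w : Equiv.Perm GolayPt)⁻¹ ((g : Equiv.Perm GolayPt) ((w : Equiv.Perm GolayPt) p)) = p
    rw [h5]
    simp

end Cfsg.Agent.Lib.M24X
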