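/-
The group `M9 = 3² : Q8` in `M12` (helper18).
-/
import Cfsg.Agent.Lib.M24X.Hexad

set_option autoImplicit false
set_option maxRecDepth 100000
set_option maxHeartbeats 1000000

namespace Cfsg.Agent.Lib.M24X

open Cfsg Cfsg.Agent.Lib.Golay MulAction
open scoped Pointwise

section abstract

variable {H : Type*} [Group H]

/-- An injective homomorphism from the quaternion group. -/
theorem quat_hom_exists (A B : H) (hA4 : A ^ 4 = 1) (hA2 : A ^ 2 ≠ 1) (hB : B ^ 2 = A ^ 2)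
    (hBA : B * A * B⁻¹ = A⁻¹) : ∃ f : QuaternionGroup 2 →* H, Function.Injective f := by
  have hord : orderOf A = 4 := by
    have := orderOf_eq_prime_pow (p := 2) (n := 1) (x := A) (by simpa using hA2) (by simpa using hA4)
    simpa using this
  let g : ZMod (2 * 2) → H := fun i => A ^ i.val
  have hg0 : g 0 = 1 := by
    show A ^ (0 : ZMod (2 * 2)).val = 1
    simp
  have hg_add : ∀ i j, g (i + j) = g i * g j := by
    intro i j
    show A ^ (i + j).val = A ^ i.val * A ^ j.val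
    rw [← pow_add, ZMod.val_add]
    have h5 := pow_mod_orderOf A (i.val + j.val)
    rw [hord] at h5
    exact h5
  have hg_neg : ∀ i, g (-i) = (g i)⁻¹ := by
    intro i
    have h1 := hg_add (-i) i
    rw [neg_add_cancel, hg0] at h1
    exact eq_inv_of_mul_eq_one_left h1.symm
  have hg_comm : ∀ i j, g i * g j = g j * g i := by
    intro i j
    rw [← hg_add, ← hg_add, add_comm]
  have hconj : ∀ i, B * g i * B⁻¹ = (g i)⁻¹ := by
    intro i
    show B * A ^ i.val * B⁻¹ = (A ^ i.val)⁻¹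
    rw [← conj_pow, hBA, inv_pow]
  have hswap : ∀ i, B * g i = (g i)⁻¹ * B := by
    intro i
    rw [← hconj i]
    group
  have hswap2 : ∀ i, g i * B = B * g (-i) := by
    intro i
    have h1 := hswap (-i)
    rw [hg_neg, inv_inv] at h1
    rw [hg_neg]
    exact h1.symm
  have hg2 : g ((2 : ℕ) : ZMod (2 * 2)) = A ^ 2 := by
    show A ^ (((2 : ℕ) : ZMod (2 * 2))).val = A ^ 2
    rfl
  let F : QuaternionGroup 2 → H := fun x => match x with
    | QuaternionGroup.a i => g i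
    | QuaternionGroup.xa i => B * g i
  have hF : ∀ x y, F (x * y) = F x * F y := by
    intro x y
    cases x with
    | a i =>
      cases y with
      | a j =>
        show F (QuaternionGroup.a i * QuaternionGroup.a j) = g i * g j
        rw [QuaternionGroup.a_mul_a]
        exact hg_add i j
      | xa j =>
        show F (QuaternionGroup.a i * QuaternionGroup.xa j) = g i * (B * g j)
        rw [QuaternionGroup.a_mul_xa]
        show B * g (j - i) = g i * (B * g j)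
        rw [← mul_assoc, hswap2, mul_assoc, ← hg_add, sub_eq_add_neg, add_comm]
    | xa i =>
      cases y with
      | a j =>
        show F (QuaternionGroup.xa i * QuaternionGroup.a j) = B * g i * g j
        rw [QuaternionGroup.xa_mul_a]
        show B * g (i + j) = B * g i * g j
        rw [hg_add, mul_assoc]
      | xa j =>
        show F (QuaternionGroup.xa i * QuaternionGroup.xa j) = B * g i * (B * g j)
        rw [QuaternionGroup.xa_mul_xa]
        show g (((2 : ℕ) : ZMod (2 * 2)) + j - i) = B * g i * (B * g j)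
        rw [sub_eq_add_neg, hg_add, hg_add, hg2]
        calc A ^ 2 * g j * g (-i) = B ^ 2 * (g (-i) * g j) := by rw [hB, mul_assoc, hg_comm j]
          _ = B * (B * g (-i)) * g j := by rw [pow_two]; group
          _ = B * (g i * B) * g j := by rw [hswap2]
          _ = B * g i * (B * g j) := by group
  let f : QuaternionGroup 2 →* H := MonoidHom.mk' F hF
  refine ⟨f, ?_⟩
  rw [injective_iff_map_eq_one]
  intro x hx
  cases x with
  | a i =>
    have h1 : A ^ i.val = 1 := hx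
    have h2 := orderOf_dvd_of_pow_eq_one h1
    rw [hord] at h2
    have h3 : i.val < 4 := ZMod.val_lt i
    have h4 : i.val = 0 := by omega
    have h5 : i = 0 := (ZMod.val_eq_zero i).mp h4
    rw [h5]
    rfl
  | xa i =>
    exfalso
    have h1 : B * g i = 1 := hx
    have h2 : B = (g i)⁻¹ := eq_inv_of_mul_eq_one_left h1
    have h3 : B * A * B⁻¹ = A := by
      have h4 : A = g 1 := by
        show A = A ^ (1 : ZMod (2 * 2)).val
        have : (1 : ZMod (2 * 2)).val = 1 := rfl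
        rw [this, pow_one]
      rw [h2, h4]
      rw [inv_inv, mul_assoc, hg_comm 1 i, ← mul_assoc, inv_mul_cancel, one_mul]
    rw [hBA] at h3
    apply hA2
    have h6 : A * A = 1 := by
      nth_rewrite 1 [← h3]
      group
    rwa [pow_two]

theorem fact72_three : (72 : ℕ).factorization 3 = 2 := by
  have h : (72 : ℕ) = 3 ^ 2 * 8 := by norm_num
  rw [h, Nat.factorization_mul (by norm_num) (by norm_num)]
  simp only [Finsupp.add_apply]
  rw [Nat.Prime.factorization_pow Nat.prime_three]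
  have h2 : (8 : ℕ).factorization 3 = 0 := Nat.factorization_eq_zero_of_not_dvd (by norm_num)
  simp [h2]

theorem fact72_two : (72 : ℕ).factorization 2 = 3 := by
  have h : (72 : ℕ) = 2 ^ 3 * 9 := by norm_num
  rw [h, Nat.factorization_mul (by norm_num) (by norm_num)]
  simp only [Finsupp.add_apply]
  rw [Nat.Prime.factorization_pow Nat.prime_two]
  have h2 : (9 : ℕ).factorization 2 = 0 := Nat.factorization_eq_zero_of_not_dvd (by norm_num)
  simp [h2]

instance : Fact (Nat.Prime 3) := ⟨Nat.prime_three⟩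

theorem m9_abstract [Finite H] (hcard : Nat.card H = 72)
    (hmul : ∀ x y : H, x ^ 3 = 1 → y ^ 3 = 1 → (x * y) ^ 3 = 1) (h9 : Nat.card {x : H // x ^ 3 = 1} = 9)
    (A B : H) (hA4 : A ^ 4 = 1) (hA2 : A ^ 2 ≠ 1) (hB : B ^ 2 = A ^ 2) (hBA : B * A * B⁻¹ = A⁻¹) :
    (∀ Q : Sylow 3 H, (Q : Subgroup H).Normal ∧ Nat.card ↥Q = 9 ∧ ∀ x ∈ (Q : Subgroup H), x ^ 3 = 1) ∧
      ∀ P : Sylow 2 H, Nonempty (↥P ≃* QuaternionGroup 2) := by
  let N : Subgroup H :=
    { carrier := {x | x ^ 3 = 1}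
      mul_mem' := fun {a b} ha hb => hmul a b ha hb
      one_mem' := one_pow 3
      inv_mem' := fun {x} hx => by
        show x⁻¹ ^ 3 = 1
        rw [inv_pow, show x ^ 3 = 1 from hx, inv_one] }
  have hNn : N.Normal := ⟨fun n hn g => by
    show (g * n * g⁻¹) ^ 3 = 1
    rw [conj_pow, show n ^ 3 = 1 from hn]
    simp⟩
  have hNc : Nat.card ↥N = 9 := h9
  have hNp : IsPGroup 3 ↥N := IsPGroup.of_card (n := 2) (by rw [hNc]; norm_num)
  refine ⟨fun Q => ?_, ?_⟩
  · have hQc : Nat.card ↥(Q : Subgroup H) = 9 := by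
      rw [Sylow.card_eq_multiplicity, hcard, fact72_three]
      norm_num
    have hle : N ≤ Q := by
      have := hNn
      have h1 := IsPGroup.to_sup_of_normal_left hNp Q.isPGroup'
      have h2 := Q.is_maximal' h1 le_sup_right
      rw [← h2]
      exact le_sup_left
    have e : N = (Q : Subgroup H) := Subgroup.eq_of_le_of_card_ge hle (by rw [hQc, hNc])
    refine ⟨e ▸ hNn, hQc, fun x hx => ?_⟩
    rw [← e] at hx
    exact hx
  · obtain ⟨f, hf⟩ := quat_hom_exists A B hA4 hA2 hB hBA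
    have hc : Nat.card f.range = 8 := by
      rw [← Nat.card_congr (MonoidHom.ofInjective hf).toEquiv, Nat.card_eq_fintype_card,
        QuaternionGroup.card]
    have hc2 : Nat.card f.range = 2 ^ (Nat.card H).factorization 2 := by
      rw [hc, hcard, fact72_two]
      norm_num
    let S₀ : Sylow 2 H := Sylow.ofCard f.range hc2
    intro P
    exact ⟨(Sylow.equiv P S₀).trans ((MulEquiv.subgroupCongr (Sylow.coe_ofCard f.range hc2)).trans
      (MonoidHom.ofInjective hf).symm)⟩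

theorem m9_of_equiv {H₂ : Type*} [Group H₂] [Finite H₂] (e : H ≃* H₂) (hcard : Nat.card H₂ = 72)
    (hmul : ∀ x y : H₂, x ^ 3 = 1 → y ^ 3 = 1 → (x * y) ^ 3 = 1) (h9 : Nat.card {x : H₂ // x ^ 3 = 1} = 9)
    (A B : H₂) (hA4 : A ^ 4 = 1) (hA2 : A ^ 2 ≠ 1) (hB : B ^ 2 = A ^ 2) (hBA : B * A * B⁻¹ = A⁻¹) :
    (∀ Q : Sylow 3 H, (Q : Subgroup H).Normal ∧ Nat.card ↥Q = 9 ∧ ∀ x ∈ (Q : Subgroup H), x ^ 3 = 1) ∧
      ∀ P : Sylow 2 H, Nonempty (↥P ≃* QuaternionGroup 2) := by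
  have : Finite H := Finite.of_equiv _ e.symm.toEquiv
  refine m9_abstract (Nat.card_congr e.toEquiv |>.trans hcard) ?_ ?_ (e.symm A) (e.symm B) ?_ ?_ ?_ ?_
  · intro x y hx hy
    apply e.injective
    rw [map_pow, map_mul, map_one]
    apply hmul
    · rw [← map_pow, hx, map_one]
    · rw [← map_pow, hy, map_one]
  · rw [← h9]
    apply Nat.card_congr
    refine Equiv.subtypeEquiv e.toEquiv ?_
    intro x
    show x ^ 3 = 1 ↔ (e x) ^ 3 = 1
    rw [← map_pow]
    exact (map_eq_one_iff e e.injective).symm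
  · rw [← map_pow, hA4, map_one]
  · rw [← map_pow]
    intro h
    exact hA2 ((map_eq_one_iff e.symm e.symm.injective).mp h)
  · rw [← map_pow, ← map_pow, hB]
  · rw [← map_inv, ← map_mul, ← map_mul, hBA, map_inv]

end abstract

/-- The four-fold joint stabilisers of translates. -/
def quadEquiv {G α β : Type*} [Group G] [MulAction G α] [MulAction G β] (g : G) (a : α) (b c e : β) :
    ↥(stabilizer G (g • a) ⊓ stabilizer G (g • b) ⊓ stabilizer G (g • c) ⊓ stabilizer G (g • e)) ≃*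
      ↥(stabilizer G a ⊓ stabilizer G b ⊓ stabilizer G c ⊓ stabilizer G e) where
  toFun x := ⟨g⁻¹ * x.1 * g, by
    obtain ⟨h123, h4⟩ := Subgroup.mem_inf.mp x.2
    obtain ⟨h12, h3⟩ := Subgroup.mem_inf.mp h123
    obtain ⟨h1, h2⟩ := Subgroup.mem_inf.mp h12
    rw [mem_stabilizer_iff] at h1 h2 h3 h4
    refine Subgroup.mem_inf.mpr ⟨Subgroup.mem_inf.mpr ⟨Subgroup.mem_inf.mpr ⟨?_, ?_⟩, ?_⟩, ?_⟩
    · rw [mem_stabilizer_iff, mul_smul, mul_smul, h1, inv_smul_smul]
    · rw [mem_stabilizer_iff, mul_smul, mul_smul, h2, inv_smul_smul]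
    · rw [mem_stabilizer_iff, mul_smul, mul_smul, h3, inv_smul_smul]
    · rw [mem_stabilizer_iff, mul_smul, mul_smul, h4, inv_smul_smul]⟩
  invFun x := ⟨g * x.1 * g⁻¹, by
    obtain ⟨h123, h4⟩ := Subgroup.mem_inf.mp x.2
    obtain ⟨h12, h3⟩ := Subgroup.mem_inf.mp h123
    obtain ⟨h1, h2⟩ := Subgroup.mem_inf.mp h12
    rw [mem_stabilizer_iff] at h1 h2 h3 h4
    refine Subgroup.mem_inf.mpr ⟨Subgroup.mem_inf.mpr ⟨Subgroup.mem_inf.mpr ⟨?_, ?_⟩, ?_⟩, ?_⟩
    · rw [mem_stabilizer_iff, mul_smul, mul_smul, inv_smul_smul, h1]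
    · rw [mem_stabilizer_iff, mul_smul, mul_smul, inv_smul_smul, h2]
    · rw [mem_stabilizer_iff, mul_smul, mul_smul, inv_smul_smul, h3]
    · rw [mem_stabilizer_iff, mul_smul, mul_smul, inv_smul_smul, h4]⟩
  left_inv x := Subtype.ext (by simp [mul_assoc])
  right_inv x := Subtype.ext (by simp [mul_assoc])
  map_mul' x y := Subtype.ext (by simp [mul_assoc])

/-! ### The standard group -/

def m9L : List (List ℕ) := m12T3.flatMap fun t => m12T4.map fun s => mulL t s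

def m9C : List (List ℕ) := m9L.filter fun l => mulL l (mulL l l) == idL

def m9A : List ℕ := [0,1,2,7,16,19,17,5,10,8,11,9,20,22,6,12,4,21,15,3,18,14,13,23]

def m9B : List ℕ := [0,1,2,8,13,11,15,9,5,19,7,3,17,4,12,21,22,18,14,10,6,20,16,23]

theorem m9L_ok : m9L.all (fun l => isPerm l && autCheck l && Nat.beq (pull l Golay.d0) Golay.d0 &&
    Nat.beq (lk l 23) 23 && Nat.beq (lk l 0) 0 && Nat.beq (lk l 1) 1) = true := by decide +kernel

theorem m9L_nodup : m9L.Nodup := by decide +kernel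

theorem m9L_perm {l : List ℕ} (hl : l ∈ m9L) : isPerm l = true := by
  have h := List.all_eq_true.mp m9L_ok l hl
  simp only [Bool.and_eq_true] at h
  exact h.1.1.1.1.1

/-- Membership in the standard group. -/
def PM9 (g : Equiv.Perm GolayPt) : Prop :=
  g ∈ M24 ∧ g • Golay.D0 = Golay.D0 ∧ g (pt 23) = pt 23 ∧ g (pt 0) = pt 0 ∧ g (pt 1) = pt 1

theorem T3_perm' {t : List ℕ} (ht : t ∈ m12T3) : isPerm t = true :=
  (checkT12_spec check12_3 (by decide) t ht).1

theorem T4_perm' {t : List ℕ} (ht : t ∈ m12T4) : isPerm t = true :=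
  (checkT12_spec check12_4 (by decide) t ht).1

theorem PM9_iff (g : Equiv.Perm GolayPt) : PM9 g ↔ ∃ l ∈ m9L, g = perm l := by
  constructor
  · rintro ⟨h1, h2, h3, h4, h5⟩
    have hs : g ∈ stabL M12B [23, 0, 1] := by
      rw [mem_stabL]
      refine ⟨mem_M12B_iff.mpr ⟨h1, h2⟩, ?_⟩
      intro b hb
      simp only [List.mem_cons, List.not_mem_nil, or_false] at hb
      rcases hb with rfl | rfl | rfl
      · exact h3
      · exact h4
      · exact h5
    have up3 := hup12 (prev := [23, 0, 1]) (n := 2) (O := orbitL 2 m12T3) (by norm_num) (by simp)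
      (by decide) (by decide +kernel) orb12_3
    obtain ⟨t, ht, h6⟩ := List.mem_map.mp (up3 g hs)
    have ht2 := checkT12_spec check12_3 (by decide) t ht
    have h7 : g (pt 2) = perm t (pt 2) := by
      rw [perm_pt ht2.1 (by norm_num)]
      have h6' : lk t 2 = idx (g (pt 2)) := h6
      rw [h6', pt_idx]
    have h8 : (perm t)⁻¹ * g ∈ stabL M12B [23, 0, 1, 2] := inv_mul_mem_stabL_append hs ht2.2 h7
    have up4 := hup12 (prev := [23, 0, 1, 2]) (n := 3) (O := orbitL 3 m12T4) (by norm_num) (by simp)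
      (by decide) (by decide +kernel) orb12_4
    obtain ⟨s, hs', h9⟩ := List.mem_map.mp (up4 _ h8)
    have hs2 := checkT12_spec check12_4 (by decide) s hs'
    have h10 : ((perm t)⁻¹ * g) (pt 3) = perm s (pt 3) := by
      rw [perm_pt hs2.1 (by norm_num)]
      have h9' : lk s 3 = idx (((perm t)⁻¹ * g) (pt 3)) := h9
      rw [h9', pt_idx]
    have h11 : (perm s)⁻¹ * ((perm t)⁻¹ * g) ∈ stabL M12B [23, 0, 1, 2, 3] :=
      inv_mul_mem_stabL_append h8 hs2.2 h10
    rw [stab12_trivial, Subgroup.mem_bot] at h11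
    refine ⟨mulL t s, List.mem_flatMap.mpr ⟨t, ht, List.mem_map.mpr ⟨s, hs', rfl⟩⟩, ?_⟩
    rw [perm_mulL ht2.1 hs2.1]
    have h12 : (perm t)⁻¹ * g = perm s := (inv_mul_eq_one.mp h11).symm
    rw [← h12]
    group
  · rintro ⟨l, hl, rfl⟩
    have h := List.all_eq_true.mp m9L_ok l hl
    simp only [Bool.and_eq_true, Nat.beq_eq] at h
    obtain ⟨⟨⟨⟨⟨h1, h2⟩, h3⟩, h4⟩, h5⟩, h6⟩ := h
    have hm := mem_M12B_iff.mp (perm_mem_M12B h1 h2 h3)
    refine ⟨hm.1, hm.2, ?_, ?_, ?_⟩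
    · rw [perm_pt h1 (by norm_num), h4]
    · rw [perm_pt h1 (by norm_num), h5]
    · rw [perm_pt h1 (by norm_num), h6]

abbrev HM9 : Subgroup ↥M24 :=
  stabilizer ↥M24 Golay.D0 ⊓ stabilizer ↥M24 (pt 23) ⊓ stabilizer ↥M24 (pt 0) ⊓ stabilizer ↥M24 (pt 1)

theorem HM9_mem (x : ↥HM9) : PM9 ((x : ↥M24) : Equiv.Perm GolayPt) := by
  obtain ⟨h123, h4⟩ := Subgroup.mem_inf.mp x.2
  obtain ⟨h12, h3⟩ := Subgroup.mem_inf.mp h123
  obtain ⟨h1, h2⟩ := Subgroup.mem_inf.mp h12
  exact ⟨(x : ↥M24).2, mem_stabilizer_iff.mp h1, mem_stabilizer_iff.mp h2, mem_stabilizer_iff.mp h3,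
    mem_stabilizer_iff.mp h4⟩

/-- The element of the standard group from a permutation. -/
def ofPM9 (g : Equiv.Perm GolayPt) (h : PM9 g) : ↥HM9 :=
  ⟨⟨g, h.1⟩, Subgroup.mem_inf.mpr ⟨Subgroup.mem_inf.mpr ⟨Subgroup.mem_inf.mpr
    ⟨mem_stabilizer_iff.mpr h.2.1, mem_stabilizer_iff.mpr h.2.2.1⟩, mem_stabilizer_iff.mpr h.2.2.2.1⟩,
    mem_stabilizer_iff.mpr h.2.2.2.2⟩⟩

theorem HM9_card : Nat.card ↥HM9 = 72 := by
  have h1 : Nat.card ↥HM9 = Nat.card {g // PM9 g} := by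
    apply Nat.card_congr
    exact ⟨fun x => ⟨_, HM9_mem x⟩, fun y => ofPM9 y.1 y.2, fun _ => rfl, fun _ => rfl⟩
  rw [h1, card_subtype_of_listing (fun l hl => m9L_perm hl) m9L_nodup PM9_iff]
  decide +kernel

theorem cube_check : m9L.all (fun l => isPerm (mulL l l) && isPerm (mulL l (mulL l l))) = true := by
  decide +kernel

theorem perm_cube {l : List ℕ} (hl : l ∈ m9L) : (perm l) ^ 3 = perm (mulL l (mulL l l)) := by
  have h := List.all_eq_true.mp cube_check l hl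
  simp only [Bool.and_eq_true] at h
  have hp := m9L_perm hl
  rw [perm_mulL hp h.1, perm_mulL hp hp, pow_succ', pow_two]

theorem idL_perm : isPerm idL = true := by decide +kernel

theorem cube_iff {l : List ℕ} (hl : l ∈ m9L) : (perm l) ^ 3 = 1 ↔ l ∈ m9C := by
  have h := List.all_eq_true.mp cube_check l hl
  simp only [Bool.and_eq_true] at h
  constructor
  · intro h1
    refine List.mem_filter.mpr ⟨hl, ?_⟩
    rw [perm_cube hl, ← perm_idL] at h1
    have := perm_inj h.2 idL_perm h1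
    simp [this]
  · intro h1
    have h2 := (List.mem_filter.mp h1).2
    simp only [beq_iff_eq] at h2
    rw [perm_cube hl, h2, perm_idL]

theorem m9C_closed : ∀ a ∈ m9C, ∀ b ∈ m9C, mulL a b ∈ m9C := by decide +kernel

theorem m9C_sub {a : List ℕ} (ha : a ∈ m9C) : a ∈ m9L := (List.mem_filter.mp ha).1

theorem m9C_nodup : m9C.Nodup := m9L_nodup.filter _

theorem m9C_length : m9C.length = 9 := by decide +kernel

theorem HM9_exists (x : ↥HM9) : ∃ l ∈ m9L, ((x : ↥M24) : Equiv.Perm GolayPt) = perm l :=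
  (PM9_iff _).mp (HM9_mem x)

theorem toPerm_inj : Function.Injective (toPermHom HM9) := fun _ _ h => Subtype.ext (Subtype.ext h)

theorem HM9_mul (x y : ↥HM9) (hx : x ^ 3 = 1) (hy : y ^ 3 = 1) : (x * y) ^ 3 = 1 := by
  obtain ⟨a, ha, hxa⟩ := HM9_exists x
  obtain ⟨b, hb, hyb⟩ := HM9_exists y
  have hx' : (perm a) ^ 3 = 1 := by
    have := congrArg (toPermHom HM9) hx
    rw [map_pow, map_one] at this
    rw [← hxa]
    exact this
  have hy' : (perm b) ^ 3 = 1 := by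
    have := congrArg (toPermHom HM9) hy
    rw [map_pow, map_one] at this
    rw [← hyb]
    exact this
  have hac := (cube_iff ha).mp hx'
  have hbc := (cube_iff hb).mp hy'
  have habc := m9C_closed a hac b hbc
  have h := (cube_iff (m9C_sub habc)).mpr habc
  rw [perm_mulL (m9L_perm ha) (m9L_perm hb)] at h
  apply toPerm_inj
  rw [map_pow, map_mul, map_one]
  show ((x : ↥M24) * (y : ↥M24) : Equiv.Perm GolayPt) ^ 3 = 1
  rw [hxa, hyb]
  exact h

theorem HM9_cubes : Nat.card {x : ↥HM9 // x ^ 3 = 1} = 9 := by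
  have h1 : Nat.card {x : ↥HM9 // x ^ 3 = 1} = Nat.card {g : Equiv.Perm GolayPt // PM9 g ∧ g ^ 3 = 1} := by
    apply Nat.card_congr
    refine ⟨fun x => ⟨_, HM9_mem x.1, ?_⟩, fun y => ⟨ofPM9 y.1 y.2.1, ?_⟩, fun _ => rfl, fun _ => rfl⟩
    · have := congrArg (toPermHom HM9) x.2
      rw [map_pow, map_one] at this
      exact this
    · apply toPerm_inj
      rw [map_pow, map_one]
      exact y.2.2
  rw [h1, card_subtype_of_listing (Z := m9C) (fun l hl => m9L_perm (m9C_sub hl)) m9C_nodup, m9C_length]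
  intro g
  constructor
  · rintro ⟨h2, h3⟩
    obtain ⟨l, hl, rfl⟩ := (PM9_iff g).mp h2
    exact ⟨l, (cube_iff hl).mp h3, rfl⟩
  · rintro ⟨l, hl, rfl⟩
    exact ⟨(PM9_iff _).mpr ⟨l, m9C_sub hl, rfl⟩, (cube_iff (m9C_sub hl)).mpr hl⟩

theorem AB_ok : m9A ∈ m9L ∧ m9B ∈ m9L := by decide +kernel

noncomputable def eA : ↥HM9 := ofPM9 (perm m9A) ((PM9_iff _).mpr ⟨m9A, AB_ok.1, rfl⟩)
noncomputable def eB : ↥HM9 := ofPM9 (perm m9B) ((PM9_iff _).mpr ⟨m9B, AB_ok.2, rfl⟩)

theorem A_perm : isPerm m9A = true := m9L_perm AB_ok.1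
theorem B_perm : isPerm m9B = true := m9L_perm AB_ok.2
theorem AA_perm : isPerm (mulL m9A m9A) = true := by decide +kernel
theorem BA_perm : isPerm (mulL m9B m9A) = true := by decide +kernel

theorem eA_pow4 : eA ^ 4 = 1 := by
  apply toPerm_inj
  rw [map_pow, map_one]
  show (perm m9A) ^ 4 = 1
  have h : (perm m9A) ^ 4 = perm (mulL (mulL m9A m9A) (mulL m9A m9A)) := by
    rw [perm_mulL AA_perm AA_perm, perm_mulL A_perm A_perm, show (4 : ℕ) = 2 + 2 from rfl, pow_add, pow_two]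
  rw [h, show mulL (mulL m9A m9A) (mulL m9A m9A) = idL by decide +kernel, perm_idL]

theorem eA_sq : toPermHom HM9 (eA ^ 2) = perm (mulL m9A m9A) := by
  rw [map_pow]
  show (perm m9A) ^ 2 = _
  rw [perm_mulL A_perm A_perm, pow_two]

theorem eB_sq : toPermHom HM9 (eB ^ 2) = perm (mulL m9B m9B) := by
  rw [map_pow]
  show (perm m9B) ^ 2 = _
  rw [perm_mulL B_perm B_perm, pow_two]

theorem eA_sq_ne : eA ^ 2 ≠ 1 := by
  intro h
  have h1 := eA_sq
  rw [h, map_one, ← perm_idL] at h1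
  have h2 := perm_inj idL_perm AA_perm h1
  revert h2
  decide +kernel

theorem eB_sq_eq : eB ^ 2 = eA ^ 2 := by
  apply toPerm_inj
  rw [eA_sq, eB_sq, show mulL m9B m9B = mulL m9A m9A by decide +kernel]

theorem eBA : eB * eA * eB⁻¹ = eA⁻¹ := by
  have h : eA * (eB * eA) = eB := by
    apply toPerm_inj
    rw [map_mul, map_mul]
    show perm m9A * (perm m9B * perm m9A) = perm m9B
    rw [← perm_mulL B_perm A_perm, ← perm_mulL A_perm BA_perm,
      show mulL m9A (mulL m9B m9A) = m9B by decide +kernel]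
  calc eB * eA * eB⁻¹ = eA⁻¹ * (eA * (eB * eA)) * eB⁻¹ := by group
    _ = eA⁻¹ := by rw [h]; group

/-- One level of the chain. -/
theorem lvl12 {prev : List ℕ} {n : ℕ} {T : List (List ℕ)} (hc : checkT12 prev T = true)
    (hprev : ∀ b ∈ prev, b < 24) (hn : n < 24)
    (orb : ∀ j : Fin 24, Golay.d0.testBit j = true → (j : ℕ) ∉ prev → (j : ℕ) ∈ orbitL n T)
    {x : GolayPt} (hx : x ∈ Golay.D0) (hxp : idx x ∉ prev) :
    ∃ g ∈ stabL M12B prev, g (pt n) = x := by
  have h1 := orb ⟨idx x, idx_lt x⟩ (mem_finOf.mp hx) hxp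
  obtain ⟨t, ht, h2⟩ := List.mem_map.mp h1
  have h3 := checkT12_spec hc hprev t ht
  refine ⟨perm t, h3.2, ?_⟩
  rw [perm_pt h3.1 hn]
  have h4 : lk t n = idx x := h2
  rw [h4, pt_idx]

theorem M12B_pt_mem {g : Equiv.Perm GolayPt} (hg : g ∈ M12B) {x : GolayPt} (hx : x ∈ Golay.D0) :
    g x ∈ Golay.D0 := by
  have h1 := (mem_M12B_iff.mp hg).2
  rw [← h1]
  exact Finset.smul_mem_smul_finset hx

/-- Three-transitivity on a dodecad. -/
theorem exists_three (d : Finset GolayPt) (hd : d ∈ dodecads) (p q r : GolayPt) (hp : p ∈ d) (hq : q ∈ d)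
    (hr : r ∈ d) (hpq : p ≠ q) (hpr : p ≠ r) (hqr : q ≠ r) :
    ∃ w : ↥M24, d = w • Golay.D0 ∧ p = w • pt 23 ∧ q = w • pt 0 ∧ r = w • pt 1 := by
  obtain ⟨a, ha, rfl⟩ := exists_smul_D0 hd
  have inD : ∀ x, x ∈ a • Golay.D0 → a⁻¹ x ∈ Golay.D0 := by
    intro x hx
    have h := Finset.smul_mem_smul_finset (a := a⁻¹) hx
    rwa [inv_smul_smul] at h
  obtain ⟨g0, hg0, h0⟩ := lvl12 (n := 23) (prev := []) check12_0 (by simp) (by norm_num) orb12_0
    (inD p hp) (by simp)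
  have hg0' := (mem_stabL.mp hg0).1
  have hy : g0⁻¹ (a⁻¹ q) ∈ Golay.D0 := M12B_pt_mem (M12B.inv_mem hg0') (inD q hq)
  have hz : g0⁻¹ (a⁻¹ r) ∈ Golay.D0 := M12B_pt_mem (M12B.inv_mem hg0') (inD r hr)
  have hay : a⁻¹ q = g0 (g0⁻¹ (a⁻¹ q)) := by simp
  have haz : a⁻¹ r = g0 (g0⁻¹ (a⁻¹ r)) := by simp
  have ne23 : ∀ x, a⁻¹ x ≠ g0 (pt 23) → idx (g0⁻¹ (a⁻¹ x)) ≠ 23 := by
    intro x hx h1
    apply hx
    have h2 : g0⁻¹ (a⁻¹ x) = pt 23 := by
      rw [← pt_idx (g0⁻¹ (a⁻¹ x)), h1]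
    rw [← h2]
    simp
  obtain ⟨g1, hg1, h1⟩ := lvl12 (n := 0) (prev := [23]) check12_1 (by decide) (by norm_num) orb12_1 hy (by
    simp only [List.mem_cons, List.not_mem_nil, or_false]
    apply ne23
    rw [h0]
    intro h
    exact hpq (a⁻¹.injective h).symm)
  obtain ⟨hg1', hg1f⟩ := mem_stabL.mp hg1
  have hz1 : g1⁻¹ (g0⁻¹ (a⁻¹ r)) ∈ Golay.D0 := M12B_pt_mem (M12B.inv_mem hg1') hz
  have hf23 : g1 (pt 23) = pt 23 := hg1f 23 (by simp)
  obtain ⟨g2, hg2, h2⟩ := lvl12 (n := 1) (prev := [23, 0]) check12_2 (by decide) (by norm_num) orb12_2 hz1 (by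
    simp only [List.mem_cons, List.not_mem_nil, or_false, not_or]
    constructor
    · intro h3
      have h4 : g1⁻¹ (g0⁻¹ (a⁻¹ r)) = pt 23 := by
        rw [← pt_idx (g1⁻¹ (g0⁻¹ (a⁻¹ r))), h3]
      have h5 : g0⁻¹ (a⁻¹ r) = pt 23 := by
        rw [← hf23, ← h4]
        simp
      have h6 : a⁻¹ r = a⁻¹ p := by
        rw [haz, h5, h0]
      exact hpr (a⁻¹.injective h6).symm
    · intro h3
      have h4 : g1⁻¹ (g0⁻¹ (a⁻¹ r)) = pt 0 := by
        rw [← pt_idx (g1⁻¹ (g0⁻¹ (a⁻¹ r))), h3]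
      have h5 : g0⁻¹ (a⁻¹ r) = g0⁻¹ (a⁻¹ q) := by
        rw [← h1, ← h4]
        simp
      exact hqr (a⁻¹.injective (g0⁻¹.injective h5)).symm)
  obtain ⟨hg2', hg2f⟩ := mem_stabL.mp hg2
  have hf2a : g2 (pt 23) = pt 23 := hg2f 23 (by simp)
  have hf2b : g2 (pt 0) = pt 0 := hg2f 0 (by simp)
  have hm0 := mem_M12B_iff.mp hg0'
  have hm1 := mem_M12B_iff.mp hg1'
  have hm2 := mem_M12B_iff.mp hg2'
  let w : ↥M24 := ⟨a * g0 * g1 * g2, M24.mul_mem (M24.mul_mem (M24.mul_mem ha hm0.1) hm1.1) hm2.1⟩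
  refine ⟨w, ?_, ?_, ?_, ?_⟩
  · show a • Golay.D0 = (a * g0 * g1 * g2) • Golay.D0
    rw [mul_smul, mul_smul, mul_smul, hm2.2, hm1.2, hm0.2]
  · show p = (a * g0 * g1 * g2) (pt 23)
    simp only [Equiv.Perm.mul_apply]
    rw [hf2a, hf23, h0]
    simp
  · show q = (a * g0 * g1 * g2) (pt 0)
    simp only [Equiv.Perm.mul_apply]
    rw [hf2b, h1]
    simp
  · show r = (a * g0 * g1 * g2) (pt 1)
    simp only [Equiv.Perm.mul_apply]
    rw [h2]
    simp

/-- The main theorem. -/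
theorem m9_main (d : Finset GolayPt) (hd : d ∈ dodecads) (p q r : GolayPt) (hp : p ∈ d) (hq : q ∈ d)
    (hr : r ∈ d) (hpq : p ≠ q) (hpr : p ≠ r) (hqr : q ≠ r) :
    (∀ Q : Sylow 3 ↥(stabilizer M24 d ⊓ stabilizer M24 p ⊓ stabilizer M24 q ⊓ stabilizer M24 r),
      (Q : Subgroup ↥(stabilizer M24 d ⊓ stabilizer M24 p ⊓ stabilizer M24 q ⊓ stabilizer M24 r)).Normal ∧
        Nat.card ↥Q = 9 ∧
        ∀ x ∈ (Q : Subgroup ↥(stabilizer M24 d ⊓ stabilizer M24 p ⊓ stabilizer M24 q ⊓ stabilizer M24 r)),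
          x ^ 3 = 1) ∧
    ∀ P : Sylow 2 ↥(stabilizer M24 d ⊓ stabilizer M24 p ⊓ stabilizer M24 q ⊓ stabilizer M24 r),
      Nonempty (↥P ≃* QuaternionGroup 2) := by
  obtain ⟨w, rfl, rfl, rfl, rfl⟩ := exists_three d hd p q r hp hq hr hpq hpr hqr
  exact m9_of_equiv (quadEquiv w Golay.D0 (pt 23) (pt 0) (pt 1)) HM9_card HM9_mul HM9_cubes eA eB eA_pow4
    eA_sq_ne eB_sq_eq eBA

end Cfsg.Agent.Lib.M24X
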