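import Cfsg.Agent.Lib.M24X.Joint

/-!
# The graph of disjointness on octads.
-/

set_option autoImplicit false
set_option maxRecDepth 100000
set_option maxHeartbeats 1000000

namespace Cfsg.Agent.Lib.M24X

open Cfsg Cfsg.Agent.Lib.Golay MulAction
open scoped Pointwise

theorem disjoint_smul (g : Equiv.Perm GolayPt) (A B : Finset GolayPt) :
    Disjoint (g • A) (g • B) ↔ Disjoint A B := by
  rw [Finset.disjoint_left, Finset.disjoint_left]
  constructor
  · intro h x hx hx2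
    exact h ((mem_smul_iff g _ _).mpr hx) ((mem_smul_iff g _ _).mpr hx2)
  · intro h x hx hx2
    obtain ⟨y, hy, rfl⟩ := Finset.mem_smul_finset.mp hx
    exact h hy ((mem_smul_iff g _ _).mp hx2)

theorem disjoint_finOf_iff {a b : ℕ} (ha : a < 2 ^ 24) :
    Disjoint (finOf a) (finOf b) ↔ Nat.land a b = 0 := by
  rw [Finset.disjoint_iff_inter_eq_empty, ← finOf_and]
  have hb : a &&& b < 2 ^ 24 := lt_of_le_of_lt Nat.and_le_left ha
  constructor
  · intro h
    apply finOf_injOn hb (by norm_num)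
    rw [h]
    ext p
    simp [mem_finOf]
  · intro h
    have h1 : a &&& b = 0 := h
    rw [h1]
    ext p
    simp [mem_finOf]

theorem val_check : octadL.all (fun x => Nat.beq x m0 || Nat.beq (pop (Nat.land m0 x)) 0 ||
    Nat.beq (pop (Nat.land m0 x)) 2 || Nat.beq (pop (Nat.land m0 x)) 4) = true := by decide +kernel

theorem four_check : octadL.all (fun x => !(Nat.beq (pop (Nat.land m0 x)) 4) ||
    octadL.any (fun y => Nat.beq (Nat.land m0 y) 0 && Nat.beq (Nat.land x y) 0)) = true := by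
  decide +kernel

theorem two_no_check : octadL.all (fun x => !(Nat.beq (pop (Nat.land m0 x)) 2) ||
    octadL.all (fun y => !(Nat.beq (Nat.land m0 y) 0) || !(Nat.beq (Nat.land x y) 0))) = true := by
  decide +kernel

theorem two_path_check : octadL.all (fun x => !(Nat.beq (pop (Nat.land m0 x)) 2) ||
    octadL.any (fun y => Nat.beq (Nat.land m0 y) 0 && Nat.beq (pop (Nat.land y x)) 4)) = true := by
  decide +kernel

theorem m0_lt : m0 < 2 ^ 24 := by decide +kernel

theorem inter_finOf_card {a b : ℕ} (ha : a < 2 ^ 24) : (finOf a ∩ finOf b).card = pop (Nat.land a b) :=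
  card_inter_finOf ha

/-- Octads meet in `0`, `2`, `4` or `8` points. -/
theorem octad_inter_values {o o' : Finset GolayPt} (ho : o ∈ octads) (ho' : o' ∈ octads) (hne : o ≠ o') :
    (o ∩ o').card = 0 ∨ (o ∩ o').card = 2 ∨ (o ∩ o').card = 4 := by
  obtain ⟨g, x, hx, rfl, rfl, hc⟩ := exists_pair_std ho ho'
  obtain ⟨m, hm, rfl⟩ := (mem_octads_iff _).mp hx
  rw [← hc, inter_finOf_card m0_lt]
  have h1 := List.all_eq_true.mp val_check m hm
  simp only [Bool.or_eq_true, Nat.beq_eq] at h1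
  rcases h1 with ((h | h) | h) | h
  · exfalso
    apply hne
    rw [h]
  · exact Or.inl h
  · exact Or.inr (Or.inl h)
  · exact Or.inr (Or.inr h)

theorem octad_four {o o' : Finset GolayPt} (ho : o ∈ octads) (ho' : o' ∈ octads)
    (h : (o ∩ o').card = 4) : ∃ y ∈ octads, Disjoint o y ∧ Disjoint o' y := by
  obtain ⟨g, x, hx, rfl, rfl, hc⟩ := exists_pair_std ho ho'
  obtain ⟨m, hm, rfl⟩ := (mem_octads_iff _).mp hx
  rw [← hc, inter_finOf_card m0_lt] at h
  have h1 := List.all_eq_true.mp four_check m hm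
  rw [show Nat.beq (pop (Nat.land m0 m)) 4 = true by rw [h]; rfl] at h1
  simp only [Bool.not_true, Bool.false_or, List.any_eq_true, Bool.and_eq_true, Nat.beq_eq] at h1
  obtain ⟨y, hy, h2, h3⟩ := h1
  refine ⟨g • finOf y, smul_octad g.2 ((mem_octads_iff _).mpr ⟨y, hy, rfl⟩), ?_, ?_⟩
  · exact (disjoint_smul (g : Equiv.Perm GolayPt) _ _).mpr ((disjoint_finOf_iff m0_lt).mpr h2)
  · exact (disjoint_smul (g : Equiv.Perm GolayPt) _ _).mpr ((disjoint_finOf_iff (octadL_lt hm)).mpr h3)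

theorem octad_two_no {o o' : Finset GolayPt} (ho : o ∈ octads) (ho' : o' ∈ octads)
    (h : (o ∩ o').card = 2) : ¬ ∃ y ∈ octads, Disjoint o y ∧ Disjoint o' y := by
  obtain ⟨g, x, hx, rfl, rfl, hc⟩ := exists_pair_std ho ho'
  obtain ⟨m, hm, rfl⟩ := (mem_octads_iff _).mp hx
  rw [← hc, inter_finOf_card m0_lt] at h
  rintro ⟨y, hy, h2, h3⟩
  have h1 := List.all_eq_true.mp two_no_check m hm
  rw [show Nat.beq (pop (Nat.land m0 m)) 2 = true by rw [h]; rfl] at h1
  simp only [Bool.not_true, Bool.false_or, List.all_eq_true] at h1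
  have hy' : (g⁻¹ : ↥M24) • y ∈ octads := smul_octad (g⁻¹).2 hy
  obtain ⟨n, hn, hne⟩ := (mem_octads_iff _).mp hy'
  have hyy : y = g • finOf n := by
    rw [← hne]
    simp
  rw [hyy] at h2 h3
  have h4 := h1 n hn
  have h5 : Nat.land m0 n = 0 :=
    (disjoint_finOf_iff m0_lt).mp ((disjoint_smul (g : Equiv.Perm GolayPt) _ _).mp h2)
  have h6 : Nat.land m n = 0 :=
    (disjoint_finOf_iff (octadL_lt hm)).mp ((disjoint_smul (g : Equiv.Perm GolayPt) _ _).mp h3)
  rw [h5, h6] at h4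
  simp at h4

theorem octad_two_path {o o' : Finset GolayPt} (ho : o ∈ octads) (ho' : o' ∈ octads)
    (h : (o ∩ o').card = 2) : ∃ y ∈ octads, Disjoint o y ∧ (y ∩ o').card = 4 := by
  obtain ⟨g, x, hx, rfl, rfl, hc⟩ := exists_pair_std ho ho'
  obtain ⟨m, hm, rfl⟩ := (mem_octads_iff _).mp hx
  rw [← hc, inter_finOf_card m0_lt] at h
  have h1 := List.all_eq_true.mp two_path_check m hm
  rw [show Nat.beq (pop (Nat.land m0 m)) 2 = true by rw [h]; rfl] at h1
  simp only [Bool.not_true, Bool.false_or, List.any_eq_true, Bool.and_eq_true, Nat.beq_eq] at h1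
  obtain ⟨y, hy, h2, h3⟩ := h1
  refine ⟨g • finOf y, smul_octad g.2 ((mem_octads_iff _).mpr ⟨y, hy, rfl⟩), ?_, ?_⟩
  · exact (disjoint_smul (g : Equiv.Perm GolayPt) _ _).mpr ((disjoint_finOf_iff m0_lt).mpr h2)
  · have h5 : (g • finOf y ∩ g • finOf m) = (g : Equiv.Perm GolayPt) • (finOf y ∩ finOf m) := by
      rw [Finset.smul_finset_inter]
      rfl
    rw [h5, Finset.card_smul_finset, inter_finOf_card (octadL_lt hy)]
    exact h3

/-! ### The graph -/

/-- The graph. -/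
abbrev OG : SimpleGraph ↥(octads : Set (Finset GolayPt)) := blockGraph octads

theorem adj_iff {o o' : Finset GolayPt} (ho : o ∈ octads) (ho' : o' ∈ octads) :
    OG.Adj ⟨o, ho⟩ ⟨o', ho'⟩ ↔ Disjoint o o' := by
  simp only [OG, blockGraph, SimpleGraph.fromRel_adj, ne_eq, Subtype.mk.injEq]
  constructor
  · rintro ⟨-, h | h⟩
    · exact h
    · exact h.symm
  · intro h
    refine ⟨?_, Or.inl h⟩
    rintro rfl
    have : o = ∅ := by simpa using h
    rw [this] at ho
    have := ho.2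
    simp at this

theorem dist_main (o o' : Finset GolayPt) (ho : o ∈ octads) (ho' : o' ∈ octads) (hne : o ≠ o') :
    OG.Reachable ⟨o, ho⟩ ⟨o', ho'⟩ ∧
    ((o ∩ o').card = 0 → OG.dist ⟨o, ho⟩ ⟨o', ho'⟩ = 1) ∧
    ((o ∩ o').card = 4 → OG.dist ⟨o, ho⟩ ⟨o', ho'⟩ = 2) ∧
    ((o ∩ o').card = 2 → OG.dist ⟨o, ho⟩ ⟨o', ho'⟩ = 3) := by
  have hv : (⟨o, ho⟩ : ↥(octads : Set (Finset GolayPt))) ≠ ⟨o', ho'⟩ := fun h => hne (congrArg Subtype.val h)
  have case0 : (o ∩ o').card = 0 → OG.Adj ⟨o, ho⟩ ⟨o', ho'⟩ := by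
    intro h
    rw [adj_iff]
    rw [Finset.disjoint_iff_inter_eq_empty]
    exact Finset.card_eq_zero.mp h
  have nadj : (o ∩ o').card ≠ 0 → ¬ OG.Adj ⟨o, ho⟩ ⟨o', ho'⟩ := by
    intro h hadj
    rw [adj_iff, Finset.disjoint_iff_inter_eq_empty] at hadj
    exact h (Finset.card_eq_zero.mpr hadj)
  have case4 : (o ∩ o').card = 4 → ∃ w : OG.Walk ⟨o, ho⟩ ⟨o', ho'⟩, w.length = 2 := by
    intro h
    obtain ⟨y, hy, h1, h2⟩ := octad_four ho ho' h
    exact ⟨SimpleGraph.Walk.cons ((adj_iff ho hy).mpr h1)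
      (SimpleGraph.Walk.cons ((adj_iff hy ho').mpr h2.symm) SimpleGraph.Walk.nil), rfl⟩
  have case2 : (o ∩ o').card = 2 → ∃ w : OG.Walk ⟨o, ho⟩ ⟨o', ho'⟩, w.length = 3 := by
    intro h
    obtain ⟨y, hy, h1, h2⟩ := octad_two_path ho ho' h
    obtain ⟨z, hz, h3, h4⟩ := octad_four hy ho' h2
    exact ⟨SimpleGraph.Walk.cons ((adj_iff ho hy).mpr h1)
      (SimpleGraph.Walk.cons ((adj_iff hy hz).mpr h3)
        (SimpleGraph.Walk.cons ((adj_iff hz ho').mpr h4.symm) SimpleGraph.Walk.nil)), rfl⟩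
  have hreach : OG.Reachable ⟨o, ho⟩ ⟨o', ho'⟩ := by
    rcases octad_inter_values ho ho' hne with h | h | h
    · exact (case0 h).reachable
    · obtain ⟨w, -⟩ := case2 h
      exact ⟨w⟩
    · obtain ⟨w, -⟩ := case4 h
      exact ⟨w⟩
  have hpos : 0 < OG.dist ⟨o, ho⟩ ⟨o', ho'⟩ := hreach.pos_dist_of_ne hv
  refine ⟨hreach, ?_, ?_, ?_⟩
  · intro h
    exact SimpleGraph.dist_eq_one_iff_adj.mpr (case0 h)
  · intro h
    obtain ⟨w, hw⟩ := case4 h
    have h1 := SimpleGraph.dist_le w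
    have h2 : OG.dist ⟨o, ho⟩ ⟨o', ho'⟩ ≠ 1 := fun hc =>
      nadj (by omega) (SimpleGraph.dist_eq_one_iff_adj.mp hc)
    omega
  · intro h
    obtain ⟨w, hw⟩ := case2 h
    have h1 := SimpleGraph.dist_le w
    have h2 : OG.dist ⟨o, ho⟩ ⟨o', ho'⟩ ≠ 1 := fun hc =>
      nadj (by omega) (SimpleGraph.dist_eq_one_iff_adj.mp hc)
    have h3 : OG.dist ⟨o, ho⟩ ⟨o', ho'⟩ ≠ 2 := by
      intro hc
      obtain ⟨p, hp⟩ := hreach.exists_walk_length_eq_dist
      rw [hc] at hp
      apply octad_two_no ho ho' h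
      cases p with
      | nil => simp at hp
      | @cons _ v _ h1 q =>
        cases q with
        | nil => simp at hp
        | @cons _ v2 _ h2 q2 =>
          cases q2 with
          | nil =>
            refine ⟨v.1, v.2, ?_, ?_⟩
            · exact (adj_iff ho v.2).mp h1
            · exact ((adj_iff v.2 ho').mp h2).symm
          | cons h3 q3 => simp at hp
    omega

theorem octad_graph_main (o o' : Finset GolayPt) (ho : o ∈ octads) (ho' : o' ∈ octads) (hne : o ≠ o') :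
    OG.Connected ∧ (OG.dist ⟨o, ho⟩ ⟨o', ho'⟩ = 1 ↔ (o ∩ o').card = 0) ∧
      (OG.dist ⟨o, ho⟩ ⟨o', ho'⟩ = 2 ↔ (o ∩ o').card = 4) ∧
      (OG.dist ⟨o, ho⟩ ⟨o', ho'⟩ = 3 ↔ (o ∩ o').card = 2) := by
  obtain ⟨-, h1, h2, h3⟩ := dist_main o o' ho ho' hne
  have hval := octad_inter_values ho ho' hne
  refine ⟨?_, ⟨fun h => ?_, h1⟩, ⟨fun h => ?_, h2⟩, ⟨fun h => ?_, h3⟩⟩
  · have : Nonempty ↥(octads : Set (Finset GolayPt)) := ⟨⟨o, ho⟩⟩
    refine ⟨?_⟩
    intro u v
    by_cases huv : u = v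
    · rw [huv]
    · exact (dist_main u.1 v.1 u.2 v.2 (fun h => huv (Subtype.ext h))).1
  · rcases hval with h' | h' | h'
    · exact h'
    · have := h3 h'; omega
    · have := h2 h'; omega
  · rcases hval with h' | h' | h'
    · have := h1 h'; omega
    · have := h3 h'; omega
    · exact h'
  · rcases hval with h' | h' | h'
    · have := h1 h'; omega
    · exact h'
    · have := h2 h'; omega

end Cfsg.Agent.Lib.M24X
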