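import Cfsg.Agent.Lib.M24X.OctadData

set_option autoImplicit false
set_option maxRecDepth 100000

namespace Cfsg.Agent.Lib.M24X

def g7 : List ℕ := [0,1,4,19,15,11,9,6,14,2,22,18,10,8,3,16,7,20,21,17,13,12,5,23]

def cF7 : List (List ℕ) := [
  [0,1,2,3,4,5,6,7,8,9,10,11,12,13,14,15,16,17,18,19,20,21,22,23],
  [1,0,8,15,14,5,20,17,2,13,10,11,12,9,4,3,19,7,18,16,6,21,22,23],
  [23,1,5,3,11,2,10,12,8,22,6,4,7,13,14,18,21,17,15,19,20,16,9,0],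
  [1,23,8,18,14,2,20,17,5,13,6,4,7,22,11,3,19,12,15,21,10,16,9,0],
  [23,0,5,15,11,8,10,12,2,22,20,14,17,9,4,18,21,7,3,16,6,19,13,1],
  [0,23,2,18,4,8,6,7,5,9,20,14,17,22,11,15,16,12,3,21,10,19,13,1]]

def N21L : List (List ℕ) := [
  [0,1,2,3,4,5,6,7,8,9,10,11,12,13,14,15,16,17,18,19,20,21,22,23],
  [0,1,2,14,7,5,9,15,8,16,22,12,18,19,17,4,6,3,11,20,13,10,21,23],
  [0,1,2,17,15,5,16,4,8,6,21,18,11,20,3,7,9,14,12,13,19,22,10,23],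
  [0,1,4,20,16,11,7,15,14,9,12,21,18,13,19,6,2,3,10,8,17,5,22,23],
  [0,1,4,19,15,11,9,6,14,2,22,18,10,8,3,16,7,20,21,17,13,12,5,23],
  [0,1,4,3,6,11,2,16,14,7,5,10,21,17,20,15,9,19,18,13,8,22,12,23],
  [0,1,6,13,15,10,7,2,20,4,12,18,5,14,3,9,16,8,22,19,17,21,11,23],
  [0,1,6,3,2,10,4,9,20,16,11,5,22,19,8,15,7,13,18,17,14,12,21,23],
  [0,1,6,8,9,10,16,15,20,7,21,22,18,17,13,2,4,3,5,14,19,11,12,23],
  [0,1,7,13,6,12,15,4,17,16,18,10,11,19,20,9,2,14,22,8,3,5,21,23],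
  [0,1,7,14,9,12,2,6,17,15,5,22,10,3,13,4,16,20,11,19,8,21,18,23],
  [0,1,7,20,4,12,16,9,17,2,21,11,22,8,14,6,15,13,10,3,19,18,5,23],
  [0,1,9,19,4,22,15,2,13,7,18,11,5,17,14,16,6,8,21,20,3,10,12,23],
  [0,1,9,14,2,22,7,16,13,6,12,5,21,20,8,4,15,19,11,3,17,18,10,23],
  [0,1,9,8,16,22,6,4,13,15,10,21,11,3,19,2,7,14,5,17,20,12,18,23],
  [0,1,15,19,9,18,4,7,3,6,11,22,12,20,13,16,2,17,21,8,14,5,10,23],
  [0,1,15,17,16,18,2,9,3,4,5,21,22,14,19,7,6,13,12,20,8,10,11,23],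
  [0,1,15,13,7,18,6,16,3,2,10,12,21,8,17,9,4,19,22,14,20,11,5,23],
  [0,1,16,20,7,21,4,2,19,15,11,12,5,3,17,6,9,8,10,13,14,22,18,23],
  [0,1,16,17,2,21,15,6,19,9,18,5,10,13,8,7,4,20,12,14,3,11,22,23],
  [0,1,16,8,6,21,9,7,19,4,22,10,12,14,20,2,15,17,5,3,13,18,11,23]]

def tr7 : List ℕ := [14949408,99029,1728778]


end Cfsg.Agent.Lib.M24X
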