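/-
The normaliser of a subgroup of order 7 in `M24` (helper18).
-/
import Cfsg.Agent.Lib.M24X.OctTrios
import Cfsg.Agent.Lib.M24X.SevenData
import Cfsg.Agent.Lib.LargeX.Four

set_option autoImplicit false
set_option maxRecDepth 100000
set_option maxHeartbeats 1000000

namespace Cfsg.Agent.Lib.M24X

open Cfsg Cfsg.Agent.Lib.Golay MulAction
open scoped Pointwise

/-- Powers of `g7`. -/
def powL7 : ℕ → List ℕ
  | 0 => idL
  | k + 1 => mulL g7 (powL7 k)

def pow7Tab : List (List ℕ) := (List.range 7).map powL7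

def gL7 : List (List ℕ) := pow7Tab

def NL7 : List (List ℕ) := cF7.flatMap fun u => N21L.map fun l => mulL u l

def CL7 : List (List ℕ) := cF7.flatMap fun u => gL7.map fun l => mulL u l

theorem g7_perm : isPerm g7 = true := by decide +kernel
theorem g7_aut : autCheck g7 = true := by decide +kernel

theorem powL7_perm : ∀ k, isPerm (powL7 k) = true := by
  intro k
  induction k with
  | zero => decide +kernel
  | succ k ih => exact isPerm_mulL g7_perm ih

theorem perm_powL7 : ∀ k, perm (powL7 k) = (perm g7) ^ k := by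
  intro k
  induction k with
  | zero =>
    show perm idL = 1
    exact perm_idL
  | succ k ih =>
    show perm (mulL g7 (powL7 k)) = _
    rw [perm_mulL g7_perm (powL7_perm k), ih, pow_succ']

theorem powL7_seven : powL7 7 = idL := by decide +kernel

theorem G7_pow : (perm g7) ^ 7 = 1 := by
  rw [← perm_powL7, powL7_seven, perm_idL]

theorem cF7_ok : cF7.all (fun u => isPerm u && autCheck u && (mulL u g7 == mulL g7 u)) = true := by
  decide +kernel

theorem cF7_perm {u : List ℕ} (hu : u ∈ cF7) : isPerm u = true := by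
  have h := List.all_eq_true.mp cF7_ok u hu
  simp only [Bool.and_eq_true] at h
  exact h.1.1

theorem cF7_M24 {u : List ℕ} (hu : u ∈ cF7) : perm u ∈ M24 := by
  have h := List.all_eq_true.mp cF7_ok u hu
  simp only [Bool.and_eq_true] at h
  exact perm_mem_M24 h.1.1 h.1.2

theorem cF7_comm {u : List ℕ} (hu : u ∈ cF7) : perm u * perm g7 = perm g7 * perm u := by
  have h := List.all_eq_true.mp cF7_ok u hu
  simp only [Bool.and_eq_true, beq_iff_eq] at h
  rw [← perm_mulL (cF7_perm hu) g7_perm, ← perm_mulL g7_perm (cF7_perm hu), h.2]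

theorem cF7_cover : ∀ a ∈ [23, 0, 1], ∀ b ∈ [23, 0, 1], ∀ c ∈ [23, 0, 1], a ≠ b → a ≠ c → b ≠ c →
    ∃ u ∈ cF7, lk u 23 = a ∧ lk u 0 = b ∧ lk u 1 = c := by decide +kernel

theorem fix7_check : ∀ k ∈ [1, 2, 3, 4, 5, 6], ∀ p : Fin 24, lk (powL7 k) p = p → (p : ℕ) ∈ [23, 0, 1] := by
  decide +kernel

theorem g7_fix : ∀ i ∈ [23, 0, 1], lk g7 i = i := by decide +kernel

/-- The enumeration of the elements of the stabiliser of three points normalising `g7`. -/
theorem enum7 : m24T3.all (fun z => m24T4.all fun a => m24T5.all fun b => m24T6.all fun c =>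
    let l := mulL z (mulL a (mulL b c))
    (List.range 7).all fun k => !(mulL l g7 == mulL (powL7 k) l) ||
      (decide (l ∈ N21L) && (k == 1 || k == 2 || k == 4) && (!(k == 1) || decide (l ∈ gL7)))) = true := by
  decide +kernel

theorem mulL_perm_eq {a b c d : List ℕ} (ha : isPerm a = true) (hb : isPerm b = true) (hc : isPerm c = true)
    (hd : isPerm d = true) (h : perm a * perm b = perm c * perm d) : mulL a b = mulL c d := by
  rw [← perm_mulL ha hb, ← perm_mulL hc hd] at h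
  exact perm_inj (isPerm_mulL ha hb) (isPerm_mulL hc hd) h

/-- The elements intertwining `g7` with a power. -/
theorem N7_elements {y : Equiv.Perm GolayPt} (hy : y ∈ M24) {k : ℕ} (hk : k ∈ [1, 2, 3, 4, 5, 6])
    (hc : y * perm g7 = (perm g7) ^ k * y) :
    ∃ u ∈ cF7, ∃ l ∈ N21L, y = perm u * perm l ∧ (k = 1 → l ∈ gL7) ∧ (k = 1 ∨ k = 2 ∨ k = 4) := by
  have hfix : ∀ i ∈ [23, 0, 1], idx (y (pt i)) ∈ [23, 0, 1] := by
    intro i hi
    have hi24 : i < 24 := by
      simp only [List.mem_cons, List.not_mem_nil, or_false] at hi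
      omega
    have h1 : perm g7 (pt i) = pt i := by
      rw [perm_pt g7_perm hi24, g7_fix i hi]
    have h2 : y (pt i) = ((perm g7) ^ k) (y (pt i)) := by
      have h3 := congrArg (fun f : Equiv.Perm GolayPt => f (pt i)) hc
      simp only [Equiv.Perm.mul_apply, h1] at h3
      exact h3
    have h4 := fix7_check k hk ⟨idx (y (pt i)), idx_lt _⟩ (by
      have h5 := congrArg idx h2
      rw [← perm_powL7, idx_perm (powL7_perm k)] at h5
      exact h5.symm)
    exact h4
  obtain ⟨u, hu, hu1, hu2, hu3⟩ := cF7_cover _ (hfix 23 (by simp)) _ (hfix 0 (by simp)) _ (hfix 1 (by simp))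
    (fun h => by
      have := y.injective (idx_injective h)
      exact absurd this (by decide))
    (fun h => by
      have := y.injective (idx_injective h)
      exact absurd this (by decide))
    (fun h => by
      have := y.injective (idx_injective h)
      exact absurd this (by decide))
  have hup := cF7_perm hu
  have hpt : ∀ i, i < 24 → lk u i = idx (y (pt i)) → (perm u)⁻¹ (y (pt i)) = pt i := by
    intro i hi h
    rw [Equiv.Perm.inv_eq_iff_eq, perm_pt hup hi, h, pt_idx]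
  let y' := (perm u)⁻¹ * y
  have hy' : y' ∈ stabL M24 [23, 0, 1] := by
    rw [mem_stabL]
    refine ⟨M24.mul_mem (M24.inv_mem (cF7_M24 hu)) hy, ?_⟩
    intro b hb
    simp only [List.mem_cons, List.not_mem_nil, or_false] at hb
    rcases hb with rfl | rfl | rfl
    · exact hpt _ (by norm_num) hu1
    · exact hpt _ (by norm_num) hu2
    · exact hpt _ (by norm_num) hu3
  obtain ⟨z, hz, a, ha, b, hb, c, hc', hp, he⟩ := dec3 hy'
  have hcomm : y' * perm g7 = (perm g7) ^ k * y' := by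
    have h1 : (perm u)⁻¹ * (perm g7) ^ k = (perm g7) ^ k * (perm u)⁻¹ := by
      have h2 : Commute (perm u) (perm g7) := cF7_comm hu
      exact (h2.inv_left.pow_right k).eq
    show (perm u)⁻¹ * y * perm g7 = (perm g7) ^ k * ((perm u)⁻¹ * y)
    rw [mul_assoc, hc, ← mul_assoc, h1, mul_assoc]
  rw [he, ← perm_powL7] at hcomm
  have h1 := mulL_perm_eq hp g7_perm (powL7_perm k) hp hcomm
  have h2 := List.all_eq_true.mp enum7 z hz
  have h3 := List.all_eq_true.mp h2 a ha
  have h4 := List.all_eq_true.mp h3 b hb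
  have h5 := List.all_eq_true.mp h4 c hc'
  have hk7 : k ∈ List.range 7 := by
    rw [List.mem_range]
    simp only [List.mem_cons, List.not_mem_nil, or_false] at hk
    omega
  have h6 := List.all_eq_true.mp h5 k hk7
  simp only [h1, beq_self_eq_true, Bool.not_true, Bool.false_or, Bool.and_eq_true, decide_eq_true_eq,
    Bool.or_eq_true, beq_iff_eq, Bool.not_eq_true'] at h6
  obtain ⟨⟨h7, h8⟩, h9⟩ := h6
  refine ⟨u, hu, _, h7, ?_, ?_, ?_⟩
  · rw [← he]
    show y = perm u * ((perm u)⁻¹ * y)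
    group
  · intro h10
    rcases h9 with h9 | h9
    · simp [h10] at h9
    · exact h9
  · rcases h8 with (h8 | h8) | h8
    · exact Or.inl h8
    · exact Or.inr (Or.inl h8)
    · exact Or.inr (Or.inr h8)

/-- The generator as an element of `M24`. -/
noncomputable def G7 : ↥M24 := ⟨perm g7, perm_mem_M24 g7_perm g7_aut⟩

/-- The standard subgroup. -/
noncomputable def S7 : Subgroup ↥M24 := Subgroup.zpowers G7

theorem G7_coe_pow (k : ℕ) : ((G7 ^ k : ↥M24) : Equiv.Perm GolayPt) = (perm g7) ^ k := rfl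

theorem G7_pow' : G7 ^ 7 = 1 := Subtype.ext G7_pow

theorem G7_ne : G7 ≠ 1 := by
  intro h
  have h1 : perm g7 = 1 := congrArg Subtype.val h
  rw [← perm_idL] at h1
  have h2 := perm_inj g7_perm (by decide +kernel) h1
  revert h2
  decide +kernel

theorem orderOf_G7 : orderOf G7 = 7 := by
  have : Fact (Nat.Prime 7) := ⟨by norm_num⟩
  exact orderOf_eq_prime G7_pow' G7_ne

theorem card_S7 : Nat.card ↥S7 = 7 := by
  rw [S7, Nat.card_zpowers, orderOf_G7]

theorem pow_mem_S7 (k : ℕ) : G7 ^ k ∈ S7 := Subgroup.pow_mem _ (Subgroup.mem_zpowers G7) k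

theorem mem_S7_iff (x : ↥M24) : x ∈ S7 ↔ ∃ k < 7, x = G7 ^ k := by
  constructor
  · intro hx
    obtain ⟨n, hn⟩ := (mem_powers_iff_mem_zpowers).mpr hx
    have hn' : G7 ^ n = x := hn
    subst hn'
    exact ⟨n % 7, Nat.mod_lt _ (by norm_num), by
      conv_lhs => rw [← Nat.div_add_mod n 7, pow_add, pow_mul, G7_pow', one_pow, one_mul]⟩
  · rintro ⟨k, _, rfl⟩
    exact pow_mem_S7 k

/-- Membership in the normaliser. -/
theorem mem_N_iff (y : ↥M24) : y ∈ Subgroup.normalizer (S7 : Set ↥M24) ↔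
    ∃ k ∈ [1, 2, 3, 4, 5, 6], y * G7 = G7 ^ k * y := by
  constructor
  · intro hy
    have h1 := (Subgroup.mem_normalizer_iff.mp hy G7).mp (Subgroup.mem_zpowers G7)
    obtain ⟨k, hk, he⟩ := (mem_S7_iff _).mp h1
    have hk0 : k ≠ 0 := by
      rintro rfl
      rw [pow_zero] at he
      apply G7_ne
      have h2 : y * G7 = y := by
        calc y * G7 = y * G7 * y⁻¹ * y := by group
          _ = y := by rw [he, one_mul]
      exact mul_eq_left.mp h2
    refine ⟨k, ?_, ?_⟩
    · simp only [List.mem_cons, List.not_mem_nil, or_false]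
      omega
    · rw [← he]
      group
  · rintro ⟨k, _, hk⟩
    apply Cfsg.Agent.Lib.LargeX.mem_normalizer_of_map_le
    intro a ha
    obtain ⟨j, _, rfl⟩ := (mem_S7_iff _).mp ha
    have h1 : y * G7 * y⁻¹ = G7 ^ k := by
      rw [hk]
      group
    have h2 : y * G7 ^ j * y⁻¹ = (y * G7 * y⁻¹) ^ j := (conj_pow).symm
    rw [h2, h1]
    exact Subgroup.pow_mem _ (pow_mem_S7 k) j

theorem mem_C_iff (y : ↥M24) : y ∈ Subgroup.centralizer (S7 : Set ↥M24) ↔ y * G7 = G7 * y := by
  constructor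
  · intro hy
    exact (Subgroup.mem_centralizer_iff.mp hy G7 (Subgroup.mem_zpowers G7)).symm
  · intro h
    rw [Subgroup.mem_centralizer_iff]
    intro a ha
    obtain ⟨j, _, rfl⟩ := (mem_S7_iff _).mp ha
    have h1 : Commute y G7 := h
    exact (h1.pow_right j).eq.symm

theorem NL7_nodup : NL7.Nodup := by decide +kernel
theorem CL7_nodup : CL7.Nodup := by decide +kernel
theorem NL7_length : NL7.length = 126 := by decide +kernel
theorem CL7_length : CL7.length = 42 := by decide +kernel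

theorem NL7_ok : NL7.all (fun l => isPerm l && autCheck l &&
    [1, 2, 3, 4, 5, 6].any (fun k => mulL l g7 == mulL (powL7 k) l)) = true := by decide +kernel

theorem CL7_ok : CL7.all (fun l => isPerm l && autCheck l && (mulL l g7 == mulL g7 l)) = true := by
  decide +kernel

theorem N21L_perm : ∀ l ∈ N21L, isPerm l = true := by decide +kernel
theorem gL7_perm : ∀ l ∈ gL7, isPerm l = true := by decide +kernel
theorem gL7_sub : ∀ l ∈ gL7, l ∈ gL7 := fun _ h => h

theorem card_subgroup_of_listing (K : Subgroup ↥M24) {Z : List (List ℕ)}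
    (hv : ∀ l ∈ Z, isPerm l = true) (hnd : Z.Nodup)
    (hK : ∀ y : ↥M24, y ∈ K ↔ ∃ l ∈ Z, (y : Equiv.Perm GolayPt) = perm l)
    (hM : ∀ l ∈ Z, perm l ∈ M24) :
    Nat.card K = Z.length := by
  have h1 : Nat.card K = Nat.card {g : Equiv.Perm GolayPt // ∃ l ∈ Z, g = perm l} := by
    apply Nat.card_congr
    refine ⟨fun x => ⟨_, (hK _).mp x.2⟩, fun y => ⟨⟨y.1, ?_⟩, ?_⟩, fun _ => rfl, fun _ => rfl⟩
    · obtain ⟨l, hl, he⟩ := y.2
      rw [he]
      exact hM l hl
    · exact (hK _).mpr y.2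
  rw [h1]
  exact card_subtype_of_listing hv hnd (fun _ => Iff.rfl)

theorem mem_NL7 (y : ↥M24) : y ∈ Subgroup.normalizer (S7 : Set ↥M24) ↔
    ∃ l ∈ NL7, (y : Equiv.Perm GolayPt) = perm l := by
  rw [mem_N_iff]
  constructor
  · rintro ⟨k, hk, he⟩
    have h1 : (y : Equiv.Perm GolayPt) * perm g7 = (perm g7) ^ k * y := congrArg Subtype.val he
    obtain ⟨u, hu, l, hl, h2, _, _⟩ := N7_elements y.2 hk h1
    refine ⟨mulL u l, List.mem_flatMap.mpr ⟨u, hu, List.mem_map.mpr ⟨l, hl, rfl⟩⟩, ?_⟩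
    rw [perm_mulL (cF7_perm hu) (N21L_perm l hl), h2]
  · rintro ⟨l, hl, he⟩
    have h := List.all_eq_true.mp NL7_ok l hl
    simp only [Bool.and_eq_true, List.any_eq_true, beq_iff_eq] at h
    obtain ⟨⟨h1, _⟩, k, hk, h3⟩ := h
    refine ⟨k, hk, Subtype.ext ?_⟩
    show (y : Equiv.Perm GolayPt) * perm g7 = (perm g7) ^ k * y
    rw [he, ← perm_powL7, ← perm_mulL h1 g7_perm, ← perm_mulL (powL7_perm k) h1, h3]

theorem mem_CL7 (y : ↥M24) : y ∈ Subgroup.centralizer (S7 : Set ↥M24) ↔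
    ∃ l ∈ CL7, (y : Equiv.Perm GolayPt) = perm l := by
  rw [mem_C_iff]
  constructor
  · intro he
    have h1 : (y : Equiv.Perm GolayPt) * perm g7 = (perm g7) ^ 1 * y := by
      rw [pow_one]
      exact congrArg Subtype.val he
    obtain ⟨u, hu, l, hl, h2, h3, _⟩ := N7_elements y.2 (k := 1) (by simp) h1
    refine ⟨mulL u l, List.mem_flatMap.mpr ⟨u, hu, List.mem_map.mpr ⟨l, h3 rfl, rfl⟩⟩, ?_⟩
    rw [perm_mulL (cF7_perm hu) (N21L_perm l hl), h2]
  · rintro ⟨l, hl, he⟩
    have h := List.all_eq_true.mp CL7_ok l hl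
    simp only [Bool.and_eq_true, beq_iff_eq] at h
    refine Subtype.ext ?_
    show (y : Equiv.Perm GolayPt) * perm g7 = perm g7 * y
    rw [he, ← perm_mulL h.1.1 g7_perm, ← perm_mulL g7_perm h.1.1, h.2]

theorem card_N7 : Nat.card ↥(Subgroup.normalizer (S7 : Set ↥M24)) = 126 := by
  rw [card_subgroup_of_listing _ (Z := NL7) _ NL7_nodup mem_NL7, NL7_length]
  · intro l hl
    have h := List.all_eq_true.mp NL7_ok l hl
    simp only [Bool.and_eq_true] at h
    exact perm_mem_M24 h.1.1 h.1.2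
  · intro l hl
    have h := List.all_eq_true.mp NL7_ok l hl
    simp only [Bool.and_eq_true] at h
    exact h.1.1

theorem card_C7 : Nat.card ↥(Subgroup.centralizer (S7 : Set ↥M24)) = 42 := by
  rw [card_subgroup_of_listing _ (Z := CL7) _ CL7_nodup mem_CL7, CL7_length]
  · intro l hl
    have h := List.all_eq_true.mp CL7_ok l hl
    simp only [Bool.and_eq_true] at h
    exact perm_mem_M24 h.1.1 h.1.2
  · intro l hl
    have h := List.all_eq_true.mp CL7_ok l hl
    simp only [Bool.and_eq_true] at h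
    exact h.1.1

theorem trio7_mem : fam tr7 ∈ trios := mem_trios_iff.mpr ⟨tr7, by decide +kernel, rfl⟩

theorem trio7_fix {y : ↥M24} (hy : y ∈ Subgroup.normalizer (S7 : Set ↥M24)) :
    (y : Equiv.Perm GolayPt) • fam tr7 = fam tr7 := by
  obtain ⟨l, hl, he⟩ := (mem_NL7 y).mp hy
  have h1 : ∀ l ∈ NL7, eqSetB (tr7.map (pull l)) tr7 = true := by decide +kernel
  have h := List.all_eq_true.mp NL7_ok l hl
  simp only [Bool.and_eq_true] at h
  rw [he]
  have h3 := smul_fam' h.1.1 tr7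
  rwa [fam_eq_of_eqSetB (h1 l hl)] at h3

/-- Two non-commuting elements of the centraliser. -/
theorem exists_noncomm7 : ∃ x ∈ Subgroup.centralizer (S7 : Set ↥M24),
    ∃ y ∈ Subgroup.centralizer (S7 : Set ↥M24), x * y ≠ y * x := by
  have h1 : ∃ a ∈ cF7, ∃ b ∈ cF7, mulL a b ≠ mulL b a := by decide +kernel
  obtain ⟨a, ha, b, hb, hne⟩ := h1
  refine ⟨⟨perm a, cF7_M24 ha⟩, (mem_C_iff _).mpr (Subtype.ext (cF7_comm ha)), ⟨perm b, cF7_M24 hb⟩,
    (mem_C_iff _).mpr (Subtype.ext (cF7_comm hb)), ?_⟩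
  intro he
  have h2 : perm a * perm b = perm b * perm a := congrArg Subtype.val he
  exact hne (mulL_perm_eq (cF7_perm ha) (cF7_perm hb) (cF7_perm hb) (cF7_perm ha) h2)

/-- A subgroup of order 7 is conjugate to the standard one. -/
theorem exists_conj7 (S : Subgroup ↥M24) (hS : Nat.card S = 7) :
    ∃ x : ↥M24, ∀ y, y ∈ S ↔ x⁻¹ * y * x ∈ S7 := by
  have : Fact (Nat.Prime 7) := ⟨by norm_num⟩
  have hf : (Nat.card ↥M24).factorization 7 = 1 := by
    have h : Nat.card ↥M24 = 7 ^ 1 * 34974720 := by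
      rw [card_M24]
      norm_num
    rw [h, Nat.factorization_mul (by norm_num) (by norm_num)]
    simp only [Finsupp.add_apply]
    rw [Nat.Prime.factorization_pow (by norm_num)]
    have h2 : (34974720 : ℕ).factorization 7 = 0 := Nat.factorization_eq_zero_of_not_dvd (by norm_num)
    simp [h2]
  let P : Sylow 7 ↥M24 := Sylow.ofCard S (by rw [hS, hf]; norm_num)
  let P₀ : Sylow 7 ↥M24 := Sylow.ofCard S7 (by rw [card_S7, hf]; norm_num)
  obtain ⟨x, hx⟩ := MulAction.exists_smul_eq ↥M24 P₀ P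
  refine ⟨x, fun y => ?_⟩
  have h1 : (P : Subgroup ↥M24) = S := Sylow.coe_ofCard _ _
  have h2 : (P₀ : Subgroup ↥M24) = S7 := Sylow.coe_ofCard _ _
  have h3 : ((x • P₀ : Sylow 7 ↥M24) : Subgroup ↥M24) = MulAut.conj x • (P₀ : Subgroup ↥M24) :=
    Sylow.coe_subgroup_smul
  rw [hx, h1, h2] at h3
  rw [h3, Subgroup.mem_pointwise_smul_iff_inv_smul_mem]
  rw [MulAut.smul_def, MulAut.conj_inv_apply]

/-- The main theorem. -/
theorem seven_main (S : Subgroup ↥M24) (hS : Nat.card S = 7) :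
    Nat.card ↥(Subgroup.normalizer (S : Set ↥M24)) = 126 ∧
      Nat.card ↥(Subgroup.centralizer (S : Set ↥M24)) = 42 ∧
      (∃ x ∈ Subgroup.centralizer (S : Set ↥M24), ∃ y ∈ Subgroup.centralizer (S : Set ↥M24), x * y ≠ y * x) ∧
      ∃ T ∈ trios, ∀ n ∈ Subgroup.normalizer (S : Set ↥M24), ((n : ↥M24) : Equiv.Perm GolayPt) • T = T := by
  obtain ⟨x, hx⟩ := exists_conj7 S hS
  have hx' : ∀ y, y ∈ S7 ↔ x * y * x⁻¹ ∈ S := by
    intro y
    rw [hx]
    have : x⁻¹ * (x * y * x⁻¹) * x = y := by group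
    rw [this]
  have hN : ∀ y, y ∈ Subgroup.normalizer (S : Set ↥M24) ↔ x⁻¹ * y * x ∈ Subgroup.normalizer (S7 : Set ↥M24) := by
    intro y
    rw [Subgroup.mem_normalizer_iff, Subgroup.mem_normalizer_iff]
    constructor
    · intro h a
      rw [hx', h, hx]
      have e : x⁻¹ * (y * (x * a * x⁻¹) * y⁻¹) * x = (x⁻¹ * y * x) * a * (x⁻¹ * y * x)⁻¹ := by group
      rw [e]
    · intro h a
      rw [hx, h, hx']
      have e : x * (x⁻¹ * y * x * (x⁻¹ * a * x) * (x⁻¹ * y * x)⁻¹) * x⁻¹ = y * a * y⁻¹ := by group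
      rw [e]
  have hC : ∀ y, y ∈ Subgroup.centralizer (S : Set ↥M24) ↔ x⁻¹ * y * x ∈ Subgroup.centralizer (S7 : Set ↥M24) := by
    intro y
    rw [Subgroup.mem_centralizer_iff, Subgroup.mem_centralizer_iff]
    constructor
    · intro h a ha
      have h1 := h (x * a * x⁻¹) ((hx' a).mp ha)
      calc a * (x⁻¹ * y * x) = x⁻¹ * ((x * a * x⁻¹) * y) * x := by group
        _ = x⁻¹ * (y * (x * a * x⁻¹)) * x := by rw [h1]
        _ = x⁻¹ * y * x * a := by group
    · intro h a ha
      have h1 := h (x⁻¹ * a * x) ((hx a).mp ha)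
      calc a * y = x * (x⁻¹ * a * x * (x⁻¹ * y * x)) * x⁻¹ := by group
        _ = x * (x⁻¹ * y * x * (x⁻¹ * a * x)) * x⁻¹ := by rw [h1]
        _ = y * a := by group
  have hequiv : ∀ (K K₀ : Subgroup ↥M24), (∀ y, y ∈ K ↔ x⁻¹ * y * x ∈ K₀) → Nat.card K = Nat.card K₀ := by
    intro K K₀ h
    apply Nat.card_congr
    refine ⟨fun y => ⟨x⁻¹ * y * x, (h _).mp y.2⟩, fun y => ⟨x * y * x⁻¹, ?_⟩, fun y => ?_, fun y => ?_⟩
    · rw [h]
      have e : x⁻¹ * (x * (y : ↥M24) * x⁻¹) * x = y := by group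
      rw [e]
      exact y.2
    · apply Subtype.ext
      show x * (x⁻¹ * (y : ↥M24) * x) * x⁻¹ = y
      group
    · apply Subtype.ext
      show x⁻¹ * (x * (y : ↥M24) * x⁻¹) * x = y
      group
  refine ⟨?_, ?_, ?_, ?_⟩
  · rw [hequiv _ _ hN, card_N7]
  · rw [hequiv _ _ hC, card_C7]
  · obtain ⟨a, ha, b, hb, hne⟩ := exists_noncomm7
    refine ⟨x * a * x⁻¹, ?_, x * b * x⁻¹, ?_, ?_⟩
    · rw [hC]
      have e : x⁻¹ * (x * a * x⁻¹) * x = a := by group
      rwa [e]
    · rw [hC]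
      have e : x⁻¹ * (x * b * x⁻¹) * x = b := by group
      rwa [e]
    · intro he
      apply hne
      calc a * b = x⁻¹ * ((x * a * x⁻¹) * (x * b * x⁻¹)) * x := by group
        _ = x⁻¹ * ((x * b * x⁻¹) * (x * a * x⁻¹)) * x := by rw [he]
        _ = b * a := by group
  · refine ⟨(x : Equiv.Perm GolayPt) • fam tr7, smul_trio x.2 trio7_mem, ?_⟩
    intro n hn
    have h1 := trio7_fix ((hN n).mp hn)
    have h2 : (x⁻¹ * n * x) • fam tr7 = fam tr7 := h1
    rw [mul_smul, mul_smul, inv_smul_eq_iff] at h2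
    exact h2

end Cfsg.Agent.Lib.M24X
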