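import Cfsg.Agent.Lib.M24X.Y3Data
import Cfsg.Agent.Lib.M24X.Classes

/-!
# The stabiliser of a three-set on the sextets.
-/

set_option autoImplicit false
set_option maxRecDepth 100000
set_option maxHeartbeats 2000000

namespace Cfsg.Agent.Lib.M24X

open Cfsg Cfsg.Agent.Lib.Golay MulAction
open scoped Pointwise

/-- The number of members of a family meeting `Y`. -/
def meetCt (Y : Finset GolayPt) (S : Finset (Finset GolayPt)) : ℕ :=
  (S.filter fun t => (t ∩ Y).Nonempty).card

theorem meetCt_smul (g : Equiv.Perm GolayPt) (Y : Finset GolayPt) (S : Finset (Finset GolayPt)) :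
    meetCt (g • Y) (g • S) = meetCt Y S := by
  unfold meetCt
  have : (g • S).filter (fun t => (t ∩ g • Y).Nonempty) = g • S.filter (fun t => (t ∩ Y).Nonempty) := by
    ext t
    simp only [Finset.mem_filter, Finset.mem_smul_finset]
    constructor
    · rintro ⟨⟨u, hu, rfl⟩, h⟩
      refine ⟨u, ⟨hu, ?_⟩, rfl⟩
      have h2 : (g • u ∩ g • Y) = g • (u ∩ Y) := (Finset.smul_finset_inter).symm
      have h3 : (g • (u ∩ Y)).Nonempty := by
        rw [← h2]
        exact h
      exact Finset.smul_finset_nonempty.mp h3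
    · rintro ⟨u, ⟨hu, h⟩, rfl⟩
      refine ⟨⟨u, hu, rfl⟩, ?_⟩
      have h2 : (g • u ∩ g • Y) = g • (u ∩ Y) := (Finset.smul_finset_inter).symm
      show (g • u ∩ g • Y).Nonempty
      rw [h2]
      exact Finset.smul_finset_nonempty.mpr h
  rw [this, Finset.card_smul_finset]

/-- The base three-set. -/
def y0 : ℕ := 8388611

/-- List version. -/
def meetL (L : List ℕ) : ℕ := (L.filter fun m => !(Nat.beq (Nat.land m y0) 0)).length

theorem meetCt_fam {L : List ℕ} (h1 : bdB L = true) (h2 : L.Nodup) : meetCt (finOf y0) (fam L) = meetL L := by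
  classical
  unfold meetCt meetL fam
  have hb := bdB_iff.mp h1
  have hnd := nodup_map_finOf h1 h2
  have h3 : (L.map finOf).toFinset.filter (fun t => (t ∩ finOf y0).Nonempty) =
      ((L.filter fun m => !(Nat.beq (Nat.land m y0) 0)).map finOf).toFinset := by
    ext t
    simp only [Finset.mem_filter, List.mem_toFinset, List.mem_map, List.mem_filter]
    constructor
    · rintro ⟨⟨m, hm, rfl⟩, hn⟩
      refine ⟨m, ⟨hm, ?_⟩, rfl⟩
      simp only [Bool.not_eq_true', Nat.beq_eq_true_eq] 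
      have h4 : Nat.land m y0 ≠ 0 := by
        intro h5
        have h6 : finOf m ∩ finOf y0 = ∅ := by
          rw [← finOf_and]
          have h7 : m &&& y0 = 0 := h5
          rw [h7]
          ext p
          simp [mem_finOf]
        rw [h6] at hn
        simp at hn
      have : Nat.beq (Nat.land m y0) 0 = false := by
        rw [← Bool.not_eq_true, Nat.beq_eq]
        exact h4
      exact this
    · rintro ⟨m, ⟨hm, hn⟩, rfl⟩
      refine ⟨⟨m, hm, rfl⟩, ?_⟩
      rw [← finOf_and]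
      have h4 : Nat.land m y0 ≠ 0 := by
        intro h5
        rw [h5] at hn
        simp at hn
      rw [← Finset.card_pos, card_finOf (lt_of_le_of_lt Nat.and_le_left (hb m hm))]
      by_contra h6
      apply h4
      have h7 : pop (m &&& y0) = 0 := by omega
      have hlt : m &&& y0 < 2 ^ 24 := lt_of_le_of_lt Nat.and_le_left (hb m hm)
      have h8 : finOf (m &&& y0) = ∅ := by
        rw [← Finset.card_eq_zero, card_finOf hlt, h7]
      apply finOf_injOn hlt (by norm_num)
      rw [h8]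
      ext p
      simp [mem_finOf]
  rw [h3, List.toFinset_card_of_nodup (hnd.sublist (List.Sublist.map _ List.filter_sublist)), List.length_map]

theorem hinv_y : ∀ L ∈ sextetL, meetCt (finOf y0) (fam L) = meetL L :=
  fun _ hL => meetCt_fam (sextetL_bd hL) (sextetL_nodup hL)

theorem stab_y : ∀ h : ↥(stabilizer ↥M24 (finOf y0)), ∀ x ∈ sextets,
    h • x ∈ sextets ∧ meetCt (finOf y0) (h • x) = meetCt (finOf y0) x := by
  intro h x hx
  refine ⟨smul_sextet h.1.2 hx, ?_⟩
  have h1 : ((h : ↥M24) : Equiv.Perm GolayPt) • finOf y0 = finOf y0 := mem_stabilizer_iff.mp h.2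
  have := meetCt_smul ((h : ↥M24) : Equiv.Perm GolayPt) (finOf y0) x
  rw [h1] at this
  exact this

theorem yGensIn : GensIn (stabilizer ↥M24 (finOf y0)) yGens :=
  gensIn_stabM (by decide +kernel)

theorem hΩ_s : ∀ x ∈ sextets, ∃ L ∈ sextetL, fam L = x := fun _ hx => mem_sextets_iff.mp hx

theorem y_orbit1 : orbit ↥(stabilizer ↥M24 (finOf y0)) (fam yRoot0) =
    {x | x ∈ sextets ∧ meetCt (finOf y0) x = 1} := by
  have r : yRoot0 ∈ sextetL := by decide +kernel
  exact (orbit_fam yGensIn hΩ_s hinv_y stab_y (mem_sextets_of_list r)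
    ((hinv_y _ r).trans (by decide +kernel)) (ops := yOps0) (q := 4096) (p := yP0) (c := 21)
    (by decide +kernel) (by decide +kernel)).1

theorem y_orbit2 : orbit ↥(stabilizer ↥M24 (finOf y0)) (fam yRoot1) =
    {x | x ∈ sextets ∧ meetCt (finOf y0) x = 2} := by
  have r : yRoot1 ∈ sextetL := by decide +kernel
  exact (orbit_fam yGensIn hΩ_s hinv_y stab_y (mem_sextets_of_list r)
    ((hinv_y _ r).trans (by decide +kernel)) (ops := yOps1) (q := 4096) (p := yP1) (c := 630)
    (by decide +kernel) (by decide +kernel)).1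

theorem y_orbit3 : orbit ↥(stabilizer ↥M24 (finOf y0)) (fam yRoot2) =
    {x | x ∈ sextets ∧ meetCt (finOf y0) x = 3} := by
  have r : yRoot2 ∈ sextetL := by decide +kernel
  exact (orbit_fam yGensIn hΩ_s hinv_y stab_y (mem_sextets_of_list r)
    ((hinv_y _ r).trans (by decide +kernel)) (ops := yOps2) (q := 4096) (p := yP2) (c := 1120)
    (by decide +kernel) (by decide +kernel)).1

theorem y_values : sextetL.all (fun L => Nat.beq (meetL L) 1 || Nat.beq (meetL L) 2 || Nat.beq (meetL L) 3) = true := by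
  decide +kernel

theorem y_counts (k : ℕ) : {x | x ∈ sextets ∧ meetCt (finOf y0) x = k}.ncard =
    (sextetL.filter fun L => Nat.beq (meetL L) k).length :=
  ncard_fixed_list fam sextetL sextets (fun _ => mem_sextets_iff) sextetL_map_nodup _ _
    (fun a ha => by rw [hinv_y a ha, Nat.beq_eq])

theorem y_same_conj {S S' : Finset (Finset GolayPt)} (hS : S ∈ sextets) (hS' : S' ∈ sextets)
    (h : meetCt (finOf y0) S = meetCt (finOf y0) S') : ∃ k ∈ stabilizer ↥M24 (finOf y0), k • S = S' := by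
  obtain ⟨L, hL, rfl⟩ := mem_sextets_iff.mp hS
  have hv := List.all_eq_true.mp y_values L hL
  simp only [Bool.or_eq_true, Nat.beq_eq] at hv
  rw [← hinv_y L hL] at hv
  have key : ∀ {r : List ℕ} {v : ℕ}, orbit ↥(stabilizer ↥M24 (finOf y0)) (fam r) =
      {x | x ∈ sextets ∧ meetCt (finOf y0) x = v} → meetCt (finOf y0) (fam L) = v →
      ∃ k ∈ stabilizer ↥M24 (finOf y0), k • fam L = S' := by
    intro r v ho hv2
    have h1 : fam L ∈ orbit ↥(stabilizer ↥M24 (finOf y0)) (fam r) := by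
      rw [ho]
      exact ⟨hS, hv2⟩
    have h2 : S' ∈ orbit ↥(stabilizer ↥M24 (finOf y0)) (fam r) := by
      rw [ho]
      exact ⟨hS', by rw [← h, hv2]⟩
    obtain ⟨a, ha⟩ := h1
    obtain ⟨b, hb⟩ := h2
    refine ⟨(b * a⁻¹).1, (b * a⁻¹).2, ?_⟩
    show (b * a⁻¹) • fam L = S'
    rw [← ha, ← hb, mul_smul]
    simp only [inv_smul_smul]
  rcases hv with (hv | hv) | hv
  · exact key y_orbit1 hv
  · exact key y_orbit2 hv
  · exact key y_orbit3 hv

theorem exists_smul_y0 {Y : Finset GolayPt} (hY : Y.card = 3) : ∃ g ∈ M24, g • finOf y0 = Y := by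
  classical
  obtain ⟨a, b, c, hab, hac, hbc, rfl⟩ := Finset.card_eq_three.mp hY
  obtain ⟨s, hs⟩ : ∃ s, s ∉ ({a, b, c} : Finset GolayPt) := by
    by_contra hc2
    push Not at hc2
    have h3 : ({a, b, c} : Finset GolayPt) = Finset.univ := Finset.eq_univ_iff_forall.mpr hc2
    have h4 : ({a, b, c} : Finset GolayPt).card ≤ 3 := Finset.card_le_three
    rw [h3] at h4
    exact absurd h4 (by decide)
  simp only [Finset.mem_insert, Finset.mem_singleton, not_or] at hs
  obtain ⟨h, hh, e1, e2, e3, -⟩ := exists_to_base4 hab hac (Ne.symm hs.1) hbc (Ne.symm hs.2.1) (Ne.symm hs.2.2)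
  refine ⟨h⁻¹, M24.inv_mem hh, ?_⟩
  have hy : finOf y0 = {pt 23, pt 0, pt 1} := by decide +kernel
  rw [hy, Finset.smul_finset_insert, Finset.smul_finset_insert, Finset.smul_finset_singleton]
  rw [← e1, ← e2, ← e3]
  simp

theorem y3_main (Y : Finset GolayPt) (hY : Y.card = 3) :
    {S | S ∈ sextets ∧ meetCt Y S = 1}.ncard = 21 ∧
    {S | S ∈ sextets ∧ meetCt Y S = 2}.ncard = 630 ∧
    {S | S ∈ sextets ∧ meetCt Y S = 3}.ncard = 1120 ∧
    ∀ S S', S ∈ sextets → S' ∈ sextets → meetCt Y S = meetCt Y S' → ∃ g ∈ M24, g • Y = Y ∧ g • S = S' := by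
  obtain ⟨g, hg, rfl⟩ := exists_smul_y0 hY
  have hc : ∀ k, {S | S ∈ sextets ∧ meetCt (g • finOf y0) S = k}.ncard =
      {S | S ∈ sextets ∧ meetCt (finOf y0) S = k}.ncard := by
    intro k
    have : {S | S ∈ sextets ∧ meetCt (g • finOf y0) S = k} =
        (fun x => g • x) '' {S | S ∈ sextets ∧ meetCt (finOf y0) S = k} := by
      ext S
      constructor
      · rintro ⟨h1, h2⟩
        refine ⟨g⁻¹ • S, ⟨smul_sextet (M24.inv_mem hg) h1, ?_⟩, by simp⟩
        rw [← h2, ← meetCt_smul g (finOf y0) (g⁻¹ • S)]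
        simp
      · rintro ⟨x, ⟨h1, h2⟩, rfl⟩
        exact ⟨smul_sextet hg h1, by rw [meetCt_smul, h2]⟩
    rw [this]
    exact Set.InjOn.ncard_image (fun a _ b _ h => MulAction.injective g h)
  refine ⟨?_, ?_, ?_, ?_⟩
  · rw [hc, y_counts]
    decide +kernel
  · rw [hc, y_counts]
    decide +kernel
  · rw [hc, y_counts]
    decide +kernel
  · intro S S' hS hS' he
    have h1 : g⁻¹ • S ∈ sextets := smul_sextet (M24.inv_mem hg) hS
    have h2 : g⁻¹ • S' ∈ sextets := smul_sextet (M24.inv_mem hg) hS'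
    have h3 : meetCt (finOf y0) (g⁻¹ • S) = meetCt (finOf y0) (g⁻¹ • S') := by
      have e1 := meetCt_smul g (finOf y0) (g⁻¹ • S)
      have e2 := meetCt_smul g (finOf y0) (g⁻¹ • S')
      rw [smul_inv_smul] at e1 e2
      rw [← e1, ← e2, he]
    obtain ⟨k, hk, hke⟩ := y_same_conj h1 h2 h3
    have hk0 : (k : Equiv.Perm GolayPt) • finOf y0 = finOf y0 := mem_stabilizer_iff.mp hk
    have hke' : (k : Equiv.Perm GolayPt) • g⁻¹ • S = g⁻¹ • S' := hke
    refine ⟨g * k * g⁻¹, M24.mul_mem (M24.mul_mem hg k.2) (M24.inv_mem hg), ?_, ?_⟩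
    · simp only [mul_smul, inv_smul_smul, hk0]
    · simp only [mul_smul, hke', smul_inv_smul]

end Cfsg.Agent.Lib.M24X
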